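/- BN tower (blueprints/BN.md): an isomorphism of root group sequences gives an isometry of
rank two residues (`JobRGS`). -/
import Cfsg.Agent.H12.BNMp
import Cfsg.Agent.H59.BNMK

set_option autoImplicit false
set_option linter.unusedSectionVars false

namespace H4.Rgs

open H67 H64 H54 H12.BN H12.BN.Bld

theorem split {G : Type} [Group G] [Finite G] {n : ℕ} (x : MP n G) {p q : ℤ} (h : q < p + n)
    (k : ℕ) {g : G} (hg : g ∈ II x.U p q) :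
    ∃ b ∈ II x.U p (p + k - 1), ∃ c ∈ II x.U (p + k) q, g = b * c := by
  induction k with
  | zero => exact ⟨1, one_mem _, g, by simpa using hg, by simp⟩
  | succ k ih =>
    obtain ⟨b, hb, c, hc, rfl⟩ := ih
    obtain ⟨a, ha, d, hd, rfl⟩ := H59.BN.splitL (H59.BN.normL x (by omega)) c hc
    exact ⟨b * a, mul_mem (H59.BN.II_mono _ le_rfl (by push_cast; omega) hb)
      (H59.BN.le_II _ (by omega) (by push_cast; omega) ha), d,
      by push_cast; rw [← add_assoc]; exact hd, by rw [mul_assoc]⟩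

theorem Gr.ex1 {G G' : Type} [Group G] [Group G'] {A : Subgroup G} {A' : Subgroup G'}
    {Y : Subgroup (G × G')} (h : Gr A A' Y) {a : G} (ha : a ∈ A) : ∃ g ∈ Y, g.1 = a := by
  rw [← h.1] at ha
  exact ha

theorem Gr.m1 {G G' : Type} [Group G] [Group G'] {A : Subgroup G} {A' : Subgroup G'}
    {Y : Subgroup (G × G')} (h : Gr A A' Y) {g : G × G'} (hg : g ∈ Y) : g.1 ∈ A :=
  h.1 ▸ ⟨g, hg, rfl⟩

theorem Gr.m2 {G G' : Type} [Group G] [Group G'] {A : Subgroup G} {A' : Subgroup G'}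
    {Y : Subgroup (G × G')} (h : Gr A A' Y) {g : G × G'} (hg : g ∈ Y) : g.2 ∈ A' :=
  h.2.1 ▸ ⟨g, hg, rfl⟩

section one
variable {W ι : Type} [Group W] [Finite W] {s : ι → W} {P : ι → Set W} {C : Type} [Finite C]
  {Δ : Bld s P C} {a : W → C} {i j : ι} {m : ℕ} {x : MP m (Equiv.Perm C)}

theorem II_aut (hx : IsMP Δ a i j x) {p q : ℤ} {g : Equiv.Perm C} (hg : g ∈ II x.U p q) :
    g ∈ Δ.Aut :=
  H59.BN.II_le (H := Δ.Aut) (fun k _ _ y hy => by rw [hx] at hy; exact hy.1) hg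

theorem II_fix (hx : IsMP Δ a i j x) {p q : ℤ} {v : W}
    (h : ∀ k, p ≤ k → k ≤ q → v ∈ rt s P i j k) {g : Equiv.Perm C} (hg : g ∈ II x.U p q) :
    g (a v) = a v :=
  H59.BN.II_le (H := MulAction.stabilizer (Equiv.Perm C) (a v))
    (fun k h1 h2 y hy => by rw [hx] at hy; exact hy.2.1 v (h k h1 h2)) hg

theorem II_UU (F : RtF s P i j m) (hx : IsMP Δ a i j x) {g : Equiv.Perm C}
    (hg : g ∈ II x.U 1 m) : g ∈ Δ.UU a := by
  refine H59.BN.II_le (H := Δ.UU a) (fun k h1 h2 => ?_) hg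
  obtain ⟨A, hA⟩ := F.half k
  rw [hx, ← hA]
  exact le_iSup₂_of_le (f := fun (A : HalfSp P) (_ : (1 : W) ∈ A.1) => Δ.RG a A.1) A
    (hA ▸ F.pos k h1 h2) le_rfl

theorem II_one (F : RtF s P i j m) (hx : IsMP Δ a i j x) {g : Equiv.Perm C}
    (hg : g ∈ II x.U 1 m) : g (a 1) = a 1 := II_fix hx F.pos hg

/-- the chambers of the residue -/
theorem res_trans (F : RtF s P i j m) (D : GD Δ a) (hx : IsMP Δ a i j x) {z : C}
    (hz : Δ.Res {i, j} (a 1) z) : ∃ u ∈ II x.U 1 m, ∃ v ∈ WJ s {i, j}, z = u (a v) := by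
  obtain ⟨u, hu, e⟩ := D.trans _ z rfl
  refine ⟨u, gen_le (X := Δ.XX a) (S := {A | (1 : W) ∈ A.1 ∧ Δ.δ (a 1) z ∉ A.1})
    (fun A hA => ?_) hu, _, hz, e.symm⟩
  obtain ⟨k, h1, h2, e⟩ := F.sep _ hz A hA.1 hA.2
  rw [XX, e, ← hx]
  exact H59.BN.le_II _ h1 h2

/-- an element of an interval of roots that all miss `v` and that fixes `a v` is trivial -/
theorem eq_one_of_miss (F : RtF s P i j m) (ha : Δ.Apt a) (D : GD Δ a) (hx : IsMP Δ a i j x)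
    {p q : ℤ} (h1 : 1 ≤ p) (h2 : q ≤ m) {v : W} (h : ∀ k, p ≤ k → k ≤ q → v ∉ rt s P i j k)
    {g : Equiv.Perm C} (hg : g ∈ II x.U p q) (e : g (a v) = a v) : g = 1 := by
  obtain ⟨w0, h0⟩ := Δ.E.exists_isLongest Set.univ
  refine D.UH g (II_UU F hx (H59.BN.II_mono _ h1 h2 hg)) (mem_HH h0 ha (II_aut hx hg) e
    (II_fix hx (fun k a b => ?_) hg))
  obtain ⟨A, hA⟩ := F.half k
  rw [← hA, mul_w0_mem_half Δ.E h0, hA]
  exact h k a b

/-- the stabiliser of a chamber of the apartment -/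
theorem stab (hm : mm s i j = m) (F : RtF s P i j m) {v : W} (hv : v ∈ WJ s {i, j}) :
    ∃ p q : ℤ, 1 ≤ p ∧ q ≤ m ∧ (∀ k, p ≤ k → k ≤ q → v ∈ rt s P i j k) ∧
      (Δ.Apt a → GD Δ a → IsMP Δ a i j x → ∀ g ∈ II x.U 1 m, g (a v) = a v → g ∈ II x.U p q) := by
  have E := Δ.E
  subst hm
  obtain ⟨l, hl, rfl | rfl⟩ := exists_vv E i j hv
  · have key : ∀ k, 1 ≤ k → k ≤ (mm s i j : ℤ) → (vv s i j l ∈ rt s P i j k ↔ l + 1 ≤ k) :=
      fun k a b => vv_mem_rt E i j hl a b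
    refine ⟨1 + l, mm s i j, by omega, le_rfl, fun k a b => (key k (by omega) b).2 (by omega),
      fun ha D hx g hg e => ?_⟩
    obtain ⟨b, hb, c, hc, rfl⟩ := split x (by omega) l hg
    have e1 := II_fix hx (fun k a b => (key k (by omega) b).2 (by omega)) hc
    rw [Equiv.Perm.mul_apply, e1] at e
    rw [eq_one_of_miss F ha D hx le_rfl (by omega)
      (fun k a b => by rw [key k a (by omega)]; omega) hb e, one_mul]
    exact hc
  · have key : ∀ k, 1 ≤ k → k ≤ (mm s i j : ℤ) →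
        (vv s j i l ∈ rt s P i j k ↔ k + l ≤ mm s i j) := fun k a b => by
      have := F.swap ((mm s i j : ℕ) + 1 - k)
      rw [sub_sub_cancel] at this
      have mc := mm_comm E j i
      rw [← this, vv_mem_rt E j i (by omega) (by omega) (by omega)]
      omega
    obtain ⟨n, hn⟩ : ∃ n : ℕ, n + l = mm s i j := ⟨mm s i j - l, by omega⟩
    refine ⟨1, 1 + n - 1, le_rfl, by omega, fun k a b => (key k a (by omega)).2 (by omega),
      fun ha D hx g hg e => ?_⟩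
    obtain ⟨b, hb, c, hc, e'⟩ := split x (by omega) n (inv_mem hg)
    have e1 := II_fix hx (fun k a b => (key k a (by omega)).2 (by omega)) (inv_mem hb)
    have e2 : c (a (vv s j i l)) = a (vv s j i l) := by
      rw [show c = b⁻¹ * g⁻¹ by rw [e']; group, Equiv.Perm.mul_apply,
        (Equiv.Perm.inv_eq_iff_eq.2 e.symm : g⁻¹ _ = _), e1]
    rw [eq_one_of_miss F ha D hx (by omega) le_rfl
      (fun k a b => by rw [key k (by omega) b]; omega) hc e2, mul_one, inv_eq_iff_eq_inv] at e'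
    rw [e']
    exact inv_mem hb

/-- a nontrivial element of a root group fixes only one chamber of a boundary panel -/
theorem fix_panel (ha : Δ.Apt a) (hM : Δ.Mou a) (D : GD Δ a) (A : HalfSp P) {w : W} {t : ι}
    (h1 : w ∈ A.1) (h2 : w * s t ∉ A.1) {y : Equiv.Perm C} (hy : y ∈ Δ.RG a A.1) (hn : y ≠ 1)
    {z : C} (hz : Δ.Res {t} (a w) z) (e : y z = z) : z = a w := by
  refine (Δ.res_single.1 hz).resolve_right fun h => hn ?_
  obtain ⟨φ, hφ, rfl⟩ := hM A w h1 t h2 z h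
  have := D.reg A w h1 t h2 (φ⁻¹ * y * φ) (mul_mem (mul_mem (inv_mem hφ) hy) hφ) (by
    rw [Equiv.Perm.mul_apply, Equiv.Perm.mul_apply, e, pia])
  rw [show y = φ * (φ⁻¹ * y * φ) * φ⁻¹ by group, this, mul_one, mul_inv_cancel]

theorem sw_half (ha : Δ.Apt a) (hM : Δ.Mou a) (D : GD Δ a) (A B : HalfSp P) {w : W} {t : ι}
    (h1 : w ∈ A.1) (h2 : w * s t ∈ B.1) (h3 : w ∉ B.1) {φ : Equiv.Perm C}
    (hr : Δ.Res {t} (a (w * s t)) (φ (a w)))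
    (h : ∀ y ∈ Δ.RG a A.1, φ * y * φ⁻¹ ∈ Δ.RG a B.1) : φ (a w) = a (w * s t) := by
  obtain ⟨y, hy, hn⟩ := exists_ne_one ha hM A
  refine fix_panel ha hM D B h2 (by rwa [Δ.E.mul_s_mul_s]) (h y hy) (by simpa using hn) hr ?_
  rw [Equiv.Perm.mul_apply, Equiv.Perm.mul_apply, pia, hy.2.1 w h1]

/-- an automorphism of the panel that interchanges the two root groups interchanges the two
chambers of the apartment -/
theorem sw_swap (ha : Δ.Apt a) (hM : Δ.Mou a) (D : GD Δ a) (A B : HalfSp P) (hB : B.1 = A.1ᶜ)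
    {w : W} {t : ι} (h1 : w ∈ A.1) (h2 : w * s t ∉ A.1) {φ : Equiv.Perm C} (hφ : φ ∈ Δ.Aut)
    (hr : Δ.Res {t} (a w) (φ (a w))) (h : Sw (Δ.RG a A.1) (Δ.RG a B.1) φ) :
    φ (a w) = a (w * s t) ∧ φ (a (w * s t)) = a w := by
  have r : Δ.Res {t} (a w) (a (w * s t)) := Δ.res_of_adj (Set.mem_singleton t) (ha.adj w t)
  refine ⟨sw_half ha hM D A B h1 (hB ▸ h2) (by rw [hB]; exact not_not.2 h1) (r.symm.trans hr) h.1, ?_⟩
  have := sw_half ha hM D B A (w := w * s t) (t := t) (hB ▸ h2) (by rwa [Δ.E.mul_s_mul_s]) h2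
    (φ := φ) (by
      rw [Δ.E.mul_s_mul_s]
      refine hr.trans ?_
      rw [Res, hφ]; exact r) h.2
  rwa [Δ.E.mul_s_mul_s] at this

theorem res_bac (ha : Δ.Apt a) {A B : Set W} {w : W} {t : ι} (h1 : w ∈ A) (h2 : w * s t ∈ B)
    {b y c : Equiv.Perm C} (hb : b ∈ Δ.RG a B) (hy : y ∈ Δ.RG a A) (hc : c ∈ Δ.RG a B) :
    Δ.Res {t} (a w) ((b * y * c) (a w)) := by
  have r : Δ.Res {t} (a w) (a (w * s t)) := Δ.res_of_adj (Set.mem_singleton t) (ha.adj w t)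
  exact Aut_res hb.1 r (hb.2.1 _ h2) (Aut_res hy.1 (Res.refl _ _ _) (hy.2.1 _ h1)
    (Aut_res hc.1 r (hc.2.1 _ h2) (Res.refl _ _ _)))

/-- the converse for the elements `b y c` -/
theorem sw_of_swap (ha : Δ.Apt a) (hM : Δ.Mou a) (D : GD Δ a) (A B : HalfSp P) (hB : B.1 = A.1ᶜ)
    {w : W} {t : ι} (h1 : w ∈ A.1) (h2 : w * s t ∉ A.1) {b y c : Equiv.Perm C}
    (hb : b ∈ Δ.RG a B.1) (hy : y ∈ Δ.RG a A.1) (hc : c ∈ Δ.RG a B.1)
    (hmu : ∃ b0 ∈ Δ.RG a B.1, ∃ c0 ∈ Δ.RG a B.1, Sw (Δ.RG a A.1) (Δ.RG a B.1) (b0 * y * c0))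
    (e1 : (b * y * c) (a w) = a (w * s t)) (e2 : (b * y * c) (a (w * s t)) = a w) :
    Sw (Δ.RG a A.1) (Δ.RG a B.1) (b * y * c) := by
  obtain ⟨b0, hb0, c0, hc0, h⟩ := hmu
  have h2' : w * s t ∈ B.1 := hB ▸ h2
  have h3 : w * s t * s t ∉ B.1 := by rw [Δ.E.mul_s_mul_s, hB]; exact not_not.2 h1
  obtain ⟨d1, d2⟩ := sw_swap ha hM D A B hB h1 h2 (mul_mem (mul_mem hb0.1 hy.1) hc0.1)
    (res_bac ha h1 h2' hb0 hy hc0) h
  have k : ∀ {β β0 : Equiv.Perm C}, β ∈ Δ.RG a B.1 → β0 ∈ Δ.RG a B.1 → β (a w) = β0 (a w) →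
      β = β0 := fun {β β0} p p0 e => by
    have := D.reg B _ h2' t h3 (β0⁻¹ * β) (mul_mem (inv_mem p0) p) (by
      rw [Δ.E.mul_s_mul_s, Equiv.Perm.mul_apply, e, pia])
    exact (inv_mul_eq_one.1 this).symm
  simp only [Equiv.Perm.mul_apply, hc.2.1 _ h2', hc0.2.1 _ h2'] at e1 e2 d1 d2
  rw [← Equiv.Perm.eq_inv_iff_eq] at e1 e2 d1 d2
  rw [(inv_mem hb).2.1 _ h2'] at e1
  rw [(inv_mem hb0).2.1 _ h2'] at d1
  rw [k hc hc0 (y.injective (e1.trans d1.symm)),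
    inv_injective (k (inv_mem hb) (inv_mem hb0) (e2.symm.trans d2))]
  exact h

end one

section two
variable {W ι : Type} [Group W] [Finite W] {s : ι → W} {P : ι → Set W} {C C' : Type} [Finite C]
  [Finite C'] {Δ : Bld s P C} {Δ' : Bld s P C'} {a : W → C} {a' : W → C'}

variable (Δ) in
/-- pairs of maps intertwined by `f` on the residue -/
def ZZ (J : Set ι) (p : C) (f : C → C') : Subgroup (Equiv.Perm C × Equiv.Perm C') where
  carrier := {g | g.1 ∈ Δ.Aut ∧ Δ.Res J p (g.1 p) ∧ ∀ z, Δ.Res J p z → f (g.1 z) = g.2 (f z)}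
  one_mem' := ⟨one_mem _, Res.refl _ _ _, fun _ _ => rfl⟩
  mul_mem' {g h} hg hh := by
    have k : ∀ z, Δ.Res J p z → Δ.Res J p (h.1 z) := fun z hz =>
      hh.2.1.trans (by rw [Res, hh.1]; exact hz)
    refine ⟨mul_mem hg.1 hh.1, hg.2.1.trans ?_, fun z hz => ?_⟩
    · rw [Res, Prod.fst_mul, Equiv.Perm.mul_apply, hg.1]; exact hh.2.1
    · rw [Prod.fst_mul, Prod.snd_mul, Equiv.Perm.mul_apply, Equiv.Perm.mul_apply,
        hg.2.2 _ (k z hz), hh.2.2 z hz]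
  inv_mem' {g} hg := by
    have k : ∀ z, Δ.Res J p z → Δ.Res J p (g.1⁻¹ z) := fun z hz => by
      rw [Res, ← hg.1, pai]; exact hg.2.1.symm.trans hz
    refine ⟨inv_mem hg.1, k p (Res.refl _ _ _), fun z hz => ?_⟩
    rw [Prod.fst_inv, Prod.snd_inv, Equiv.Perm.eq_inv_iff_eq, ← hg.2.2 _ (k z hz), pai]

/-- the opposite root group is compatible with the isometry -/
theorem opp_compat (ha : Δ.Apt a) (ha' : Δ'.Apt a') (hM' : Δ'.Mou a') {i j : ι} (hij : i ≠ j)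
    (hc : s i * s j ≠ s j * s i) {J : Set ι} (hJ : J = {i, j}) {f : C → C'}
    (hf : Δ.IsoOn Δ' J (a 1) f) (hfa : ∀ v ∈ WJ s J, f (a v) = a' v) {b : Equiv.Perm C}
    (hb : b ∈ Δ.RG a (P i)ᶜ) : ∃ b' ∈ Δ'.RG a' (P i)ᶜ, (b, b') ∈ ZZ Δ J (a 1) f := by
  have E := Δ.E
  have iJ : i ∈ J := by simp [hJ]
  have jJ : j ∈ J := by simp [hJ]
  have si := s_mem_WJ s iJ
  have sj := s_mem_WJ s jJ
  have ra : ∀ v ∈ WJ s J, Δ.Res J (a 1) (a v) := fun v hv => by simpa using ha.res 1 hv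
  have n1 : s i ∈ (P i)ᶜ := s_not_mem E i
  have rb : ∀ z, Δ.Res J (a 1) z → Δ.Res J (a 1) (b z) := fun z hz =>
    Aut_res hb.1 (ra _ si) (hb.2.1 _ n1) hz
  obtain ⟨b', hb', e⟩ := hM' (ng E (hs P 1 i)) (s i) (by simpa [ng, mem_hs] using n1) i
    (by simpa [ng, mem_hs, E.sq] using E.one_mem i) (f (b (a 1))) (by
      rw [← hfa _ si, ← hb.2.1 _ n1, hf _ _ (rb _ (ra _ si)) (rb _ (Res.refl _ _ _)), hb.1, ha,
        mul_one, E.inv_s])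
  have hb'' : b' ∈ Δ'.RG a' (P i)ᶜ := by
    convert hb' using 2
    ext v; simp [ng, mem_hs]
  rw [E.sq] at e
  refine ⟨b', hb'', hb.1, rb _ (Res.refl _ _ _), ?_⟩
  obtain ⟨w, hw⟩ := E.exists_isLongest J
  have i1 : Δ.IsoOn Δ' J (a 1) fun z => f (b z) := fun u v hu hv => by
    rw [hf _ _ (rb u hu) (rb v hv), hb.1]
  have i2 : Δ.IsoOn Δ' J (a 1) fun z => b' (f z) := fun u v hu hv => by
    rw [hb''.1, hf _ _ hu hv]
  have fx : ∀ v ∈ WJ s J, v ∉ P i → f (b (a v)) = b' (f (a v)) := fun v hv h => by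
    rw [hb.2.1 v h, hfa v hv, hb''.2.1 v h]
  have nw : w ∉ P i := by
    rw [E.mem_iff_len]; have := hw.2 i iJ; omega
  have e1 : f (b (a 1)) = b' (f (a 1)) := by rw [hfa 1 (one_mem _), e]
  have ap : ∀ v ∈ WJ s J, f (b (a v)) = b' (f (a v)) := fun v hv => by
    refine Δ'.mid_unique (v := v) (w := v⁻¹ * w) (x := f (b (a 1))) (z := f (b (a w)))
      (by rw [mul_inv_cancel_left, len_longest E hw hv]) ?_ ?_ ?_ ?_
    · rw [i1 _ _ (Res.refl _ _ _) (ra v hv), ha, inv_one, one_mul]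
    · rw [i1 _ _ (ra v hv) (ra w hw.1), ha]
    · rw [e1, i2 _ _ (Res.refl _ _ _) (ra v hv), ha, inv_one, one_mul]
    · rw [fx w hw.1 nw, i2 _ _ (ra v hv) (ra w hw.1), ha]
  have m1 : s j ∈ P i := (E.s_mem_iff Δ.inj j i).2 hij.symm
  have n2 : s i * s j ∈ (P i)ᶜ := by
    rw [Set.mem_compl_iff, E.s_mul_mem_iff]; exact not_not.2 m1
  have n3 : ∀ t ∈ J, s i * s j * s t ∈ (P i)ᶜ := by
    rintro t ht
    rw [hJ] at ht
    rcases ht with rfl | rfl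
    · rw [Set.mem_compl_iff, mul_assoc, E.s_mul_mem_iff, not_not, E.mul_s_mem_iff]
      simpa [m1] using hc
    · rw [E.mul_s_mul_s]; exact n1
  have sij := mul_mem si sj
  have r0 := ra _ sij
  have := Δ.rigid Δ' hw (x := a (s i * s j)) (y := a (s i * s j * w)) (i1.mono subset_rfl r0)
    (i2.mono subset_rfl r0) (ha.mul _ _) (ap _ (mul_mem sij hw.1)) (ap _ sij) fun t ht u hu => by
      show f (b u) = b' (f u)
      rw [hb.2.2 _ n2 t (n3 t ht) u hu, hb''.2.2 _ n2 t (n3 t ht) (f u)]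
      rw [← hfa _ sij, hf _ _ r0 (r0.trans (Δ.res_of_adj ht hu)), hu]
  exact fun z hz => this z (r0.symm.trans hz)

/-- the graph on a simple root group is an isomorphism of Moufang sets -/
theorem adm (ha : Δ.Apt a) (ha' : Δ'.Apt a') (hM : Δ.Mou a) (hM' : Δ'.Mou a') (D : GD Δ a)
    (D' : GD Δ' a') {i j : ι} (hij : i ≠ j) (hc : s i * s j ≠ s j * s i) {J : Set ι}
    (hJ : J = {i, j}) {f : C → C'} (hf : Δ.IsoOn Δ' J (a 1) f)
    (hfa : ∀ v ∈ WJ s J, f (a v) = a' v) {Y : Subgroup (Equiv.Perm C × Equiv.Perm C')}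
    (hY : Gr (Δ.RG a (P i)) (Δ'.RG a' (P i)) Y) (hZ : Y ≤ ZZ Δ J (a 1) f)
    (mu1 : ∀ y ∈ Δ'.RG a' (P i), y ≠ 1 → ∃ b ∈ Δ'.RG a' (P i)ᶜ, ∃ c ∈ Δ'.RG a' (P i)ᶜ,
      Sw (Δ'.RG a' (P i)) (Δ'.RG a' (P i)ᶜ) (b * y * c))
    (mu2 : ∀ y ∈ Δ'.RG a' (P i)ᶜ, y ≠ 1 → ∃ b ∈ Δ'.RG a' (P i), ∃ c ∈ Δ'.RG a' (P i),
      Sw (Δ'.RG a' (P i)ᶜ) (Δ'.RG a' (P i)) (b * y * c)) :
    Adm (Δ.RG a (P i)) (Δ.RG a (P i)ᶜ) (Δ'.RG a' (P i)) (Δ'.RG a' (P i)ᶜ) Y := by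
  have E := Δ.E
  let A : HalfSp P := ⟨P i, 1, i, by simp⟩
  let B : HalfSp P := ng E A
  have iJ : i ∈ J := by simp [hJ]
  have si := s_mem_WJ s iJ
  have h1 : (1 : W) ∈ A.1 := E.one_mem i
  have h2 : 1 * s i ∉ A.1 := by rw [one_mul]; exact s_not_mem E i
  have h1' : 1 * s i ∈ B.1 := h2
  have h2' : 1 * s i * s i ∉ B.1 := by rw [E.mul_s_mul_s]; exact not_not.2 h1
  have r : Δ.Res J (a 1) (a (1 * s i)) := ha.res 1 si
  have tr : ∀ g ∈ ZZ Δ J (a 1) f, g.1 (a 1) = a (1 * s i) ∧ g.1 (a (1 * s i)) = a 1 →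
      g.2 (a' 1) = a' (1 * s i) ∧ g.2 (a' (1 * s i)) = a' 1 := fun g hg h => by
    rw [← hfa 1 (one_mem _), ← hfa _ (mul_mem (one_mem _) si), ← hg.2.2 _ (Res.refl _ _ _),
      ← hg.2.2 _ r, h.1, h.2]
    exact ⟨rfl, rfl⟩
  refine ⟨hY, fun g hg y hy z hz g1 y1 ⟨b, hb, c, hc', sw1, l, hl, sw2⟩ => ?_⟩
  obtain ⟨b', hb', zb⟩ := opp_compat ha ha' hM' hij hc hJ hf hfa hb
  obtain ⟨c', hc'', zc⟩ := opp_compat ha ha' hM' hij hc hJ hf hfa hc'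
  obtain ⟨l', hl', rfl⟩ := Gr.ex1 hY hl
  have g2 : g.2 ≠ 1 := fun h => g1 ((hY.2.2 g hg).2 h)
  have y2 : y.2 ≠ 1 := fun h => y1 ((hY.2.2 y hy).2 h)
  have zm := mul_mem (mul_mem zb (hZ hg)) zc
  obtain ⟨p1, p2⟩ := tr _ zm (sw_swap ha hM D A B rfl h1 h2 zm.1
    (res_bac ha h1 h1' hb (Gr.m1 hY hg) hc') sw1)
  have s1 := sw_of_swap ha' hM' D' A B rfl h1 h2 hb' (Gr.m2 hY hg) hc''
    (mu1 _ (Gr.m2 hY hg) g2) p1 p2
  refine ⟨b', hb', c', hc'', s1, l'.2, Gr.m2 hY hl', ?_⟩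
  have zn := mul_mem (mul_mem (inv_mem (hZ hz)) (mul_mem (mul_mem zm (hZ hy)) (inv_mem zm)))
    (hZ hl')
  have q := sw1.1 _ (Gr.m1 hY hy)
  have q' := s1.1 _ (Gr.m2 hY hy)
  have rr := res_bac ha (w := 1 * s i) (t := i) (A := B.1) (B := A.1) h1'
    (by rw [E.mul_s_mul_s]; exact h1) (inv_mem (Gr.m1 hY hz)) q hl
  have t1 := sw_swap ha hM D B A (compl_compl _).symm h1' h2' zn.1 rr (H59.BN.Sw.symm sw2)
  rw [E.mul_s_mul_s] at t1
  obtain ⟨p3, p4⟩ := tr _ zn t1.symm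
  exact H59.BN.Sw.symm (sw_of_swap ha' hM' D' B A (compl_compl _).symm h1' h2'
    (inv_mem (Gr.m2 hY hz)) q' (Gr.m2 hY hl') (mu2 _ q' fun h => y2 (by
      rwa [mul_inv_eq_one, mul_eq_left] at h)) (by
      rw [E.mul_s_mul_s]; exact p4) (by rw [E.mul_s_mul_s]; exact p3))

theorem mus {i j : ι} {m : ℕ} {y : MP m (Equiv.Perm C')} (F : RtF s P i j m)
    (hy : IsMP Δ' a' i j y) {k : ℤ} {A : Set W} (hk : rt s P i j k = A) :
    (∀ g ∈ Δ'.RG a' A, g ≠ 1 → ∃ b ∈ Δ'.RG a' Aᶜ, ∃ c ∈ Δ'.RG a' Aᶜ,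
      Sw (Δ'.RG a' A) (Δ'.RG a' Aᶜ) (b * g * c)) ∧
    ∀ g ∈ Δ'.RG a' Aᶜ, g ≠ 1 → ∃ b ∈ Δ'.RG a' A, ∃ c ∈ Δ'.RG a' A,
      Sw (Δ'.RG a' Aᶜ) (Δ'.RG a' A) (b * g * c) := by
  have key : ∀ (k : ℤ) (A : Set W), rt s P i j k = A → ∀ g ∈ Δ'.RG a' A, g ≠ 1 →
      ∃ b ∈ Δ'.RG a' Aᶜ, ∃ c ∈ Δ'.RG a' Aᶜ, Sw (Δ'.RG a' A) (Δ'.RG a' Aᶜ) (b * g * c) := by
    rintro k _ rfl g hg h1
    rw [← F.neg, ← hy, ← hy] at *
    exact ⟨_, y.ka_mem hg h1, _, y.la_mem hg h1, H59.BN.sw y hg h1⟩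
  refine ⟨key k A hk, ?_⟩
  simpa only [compl_compl] using key (k + m) Aᶜ (by rw [F.neg, hk])

end two

theorem jobRGS : JobRGS := by
  intro W ι _ _ s P C C' _ _ Δ Δ' a a' T hM hM' D D' i j hij m hm h3 x y hx hy Y hY
  have E := Δ.E
  have ha := T.apt
  have ha' := T.apt'
  have F : RtF s P i j m := hm ▸ jobRt W ι s P E Δ.inj i j hij
  have G := (H59.BN.jobMK2 m _ _ x y h3 Y).1 hY
  have G0 := G 1 m le_rfl le_rfl
  -- transfer of stabilisers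
  have tr : ∀ v ∈ WJ s {i, j}, ∀ g ∈ II Y 1 m, g.1 (a v) = a v → g.2 (a' v) = a' v := by
    intro v hv g hg e
    obtain ⟨p, q, h1, h2, h, k⟩ := stab (Δ := Δ) (a := a) (x := x) hm F hv
    obtain ⟨g', hg', e'⟩ := Gr.ex1 (G p q h1 h2) (k ha D hx _ (Gr.m1 G0 hg) e)
    have := (G0.2.2 _ (mul_mem (inv_mem (H59.BN.II_mono _ h1 h2 hg')) hg)).1 (by simp [e'])
    rw [Prod.snd_mul, Prod.snd_inv, inv_mul_eq_one] at this
    rw [← this]
    exact II_fix hy h (Gr.m2 (G p q h1 h2) hg')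
  have dl : ∀ g ∈ II Y 1 m, ∀ v, Δ.δ (a 1) (g.1 (a v)) = v := fun g hg v => by
    have m1 := Gr.m1 G0 hg
    rw [← II_one F hx m1, II_aut hx m1, ha, inv_one, one_mul]
  have key : ∀ z, ∃ z', Δ.Res {i, j} (a 1) z →
      ∃ g ∈ II Y 1 m, ∃ v ∈ WJ s {i, j}, z = g.1 (a v) ∧ z' = g.2 (a' v) := by
    intro z
    by_cases hz : Δ.Res {i, j} (a 1) z
    · obtain ⟨u, hu, v, hv, e⟩ := res_trans F D hx hz
      obtain ⟨g, hg, rfl⟩ := Gr.ex1 G0 hu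
      exact ⟨_, fun _ => ⟨g, hg, v, hv, e, rfl⟩⟩
    · exact ⟨a' 1, fun h => (hz h).elim⟩
  choose f hf using key
  have fg : ∀ g ∈ II Y 1 m, ∀ v ∈ WJ s {i, j}, f (g.1 (a v)) = g.2 (a' v) := by
    intro g hg v hv
    obtain ⟨g', hg', v', hv', e1, e2⟩ := hf (g.1 (a v)) (by rw [Res, dl g hg]; exact hv)
    obtain rfl : v = v' := by rw [← dl g hg v, e1, dl g' hg']
    have := tr v hv _ (mul_mem (inv_mem hg') hg) (by
      rw [Prod.fst_mul, Prod.fst_inv, Equiv.Perm.mul_apply, e1, pia])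
    rw [Prod.snd_mul, Prod.snd_inv, Equiv.Perm.mul_apply, Equiv.Perm.inv_eq_iff_eq] at this
    rw [e2, this]
  have fa : ∀ v ∈ WJ s {i, j}, f (a v) = a' v := fun v hv => fg 1 (one_mem _) v hv
  have hZ : II Y 1 m ≤ ZZ Δ {i, j} (a 1) f := by
    intro g hg
    have m1 := Gr.m1 G0 hg
    refine ⟨II_aut hx m1, by rw [II_one F hx m1]; exact Res.refl _ _ _, fun z hz => ?_⟩
    obtain ⟨g', hg', v, hv, rfl, e2⟩ := hf z hz
    rw [e2]
    exact fg _ (mul_mem hg hg') v hv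
  -- panels
  have pan : ∀ v ∈ WJ s {i, j}, ∀ t ∈ ({i, j} : Set ι), len s v < len s (v * s t) → ∀ z,
      Δ.δ (a v) z = s t → ∃ h ∈ II Y 1 m, z = h.1 (a (v * s t)) ∧ h.2 (a' v) = a' v ∧
        h.2 ∈ Δ'.Aut ∧ (h.2 (a' (v * s t)) = a' (v * s t) → h.1 = 1) := by
    intro v hv t ht hl z hz
    obtain ⟨φ, hφ, e⟩ := hM _ v (self_mem_hs E v t) t (mul_s_not_mem_hs E v t) z hz
    obtain ⟨k, k1, k2, ek⟩ := F.sep _ (mul_mem hv (s_mem_WJ s ht)) _ (one_mem_hs E hl)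
      (mul_s_not_mem_hs E v t)
    rw [ek, ← hx] at hφ
    obtain ⟨h, hh, rfl⟩ := Gr.ex1 (hY.1 k k1 k2) hφ
    have m2 := Gr.m2 (hY.1 k k1 k2) hh
    rw [hy, ← ek] at m2
    exact ⟨h, H59.BN.le_II _ k1 k2 hh, e.symm, m2.2.1 v (self_mem_hs E v t), m2.1, fun c =>
      ((hY.1 k k1 k2).2.2 h hh).2
        (D'.reg _ v (self_mem_hs E v t) t (mul_s_not_mem_hs E v t) _ m2 c)⟩
  have adj : ∀ v ∈ WJ s {i, j}, ∀ t ∈ ({i, j} : Set ι), ∀ z, Δ.δ (a v) z = s t →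
      Δ'.δ (a' v) (f z) = s t := by
    intro v hv t ht z hz
    have hv' := mul_mem hv (s_mem_WJ s ht)
    rcases E.len_mul_s_ne v t with c | c
    · obtain ⟨h, hh, rfl, e, au, -⟩ := pan v hv t ht (by omega) z hz
      rw [fg h hh _ hv', ← e, au, ha'.adj]
    · rcases Δ.adj_adj (ha.adj v t) hz with rfl | c'
      · rw [fa _ hv', ha'.adj]
      · obtain ⟨h, hh, rfl, e, au, k⟩ := pan _ hv' t ht (by rw [E.mul_s_mul_s]; omega) z c'
        rw [E.mul_s_mul_s] at hz k ⊢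
        rw [fg h hh _ hv]
        refine (Δ'.adj_adj (Δ'.δ_symm_s (ha'.adj v t)) ?_).resolve_left fun c => ?_
        · rw [← e, au]; exact Δ'.δ_symm_s (ha'.adj v t)
        · rw [k c.symm, Equiv.Perm.one_apply, Δ.δ_self] at hz
          exact E.s_ne_one t hz.symm
  have iso : Δ.IsoOn Δ' {i, j} (a 1) f := by
    refine Δ.isoOn_of_adj Δ' fun u z t ht hu hz => ?_
    obtain ⟨g, hg, v, hv, rfl, e⟩ := hf u hu
    have m1 := Gr.m1 G0 hg
    have hz' : Δ.δ (a v) (g.1⁻¹ z) = s t := by rw [← II_aut hx m1, pai, hz]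
    have r : Δ.Res {i, j} (a 1) (g.1⁻¹ z) :=
      Res.trans (by simpa using ha.res 1 hv) (Δ.res_of_adj ht hz')
    rw [e, ← pai g.1 z, (hZ hg).2.2 _ r, II_aut hy (Gr.m2 G0 hg), adj v hv t ht _ hz']
  have hc : s i * s j ≠ s j * s i := fun c => by
    have : mm s i j ∣ 2 := orderOf_dvd_of_pow_eq_one (by
      rw [pow_two, mul_assoc, ← mul_assoc (s j), ← c, E.mul_s_mul_s, E.sq])
    have := Nat.le_of_dvd two_pos this
    omega
  have l1 : Y 1 ≤ II Y 1 m := H59.BN.le_II _ le_rfl (by omega)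
  have lm : Y m ≤ II Y 1 m := H59.BN.le_II _ (by omega) le_rfl
  refine ⟨f, iso, fa, fun g hg => fg g (l1 hg) _ (s_mem_WJ s (by simp)),
    fun g hg => fg g (lm hg) _ (s_mem_WJ s (by simp)), ?_, ?_⟩
  · have g1 := hY.1 1 le_rfl (by omega)
    rw [hx, hy, F.one] at g1
    exact adm ha ha' hM hM' D D' hij hc rfl iso fa g1 (l1.trans hZ) (mus F hy F.one).1
      (mus F hy F.one).2
  · have g1 := hY.1 m (by omega) le_rfl
    rw [hx, hy, F.last] at g1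
    exact adm ha ha' hM hM' D D' hij.symm hc.symm (Set.pair_comm i j) iso fa g1 (lm.trans hZ)
      (mus F hy F.last).1 (mus F hy F.last).2

end H4.Rgs
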