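import Cfsg.Agent.H31.C6S
import Cfsg.Agent.H53.C11Spec

/-! Tower C11, slot SGN1: a reflection for `q = 23` (after `H31.C6S`). -/

set_option autoImplicit false

namespace H4.C11S
open Matrix Cfsg.Geo H25 H53.C6 H31.C6 Subgroup

universe u

theorem jobSGN1 : JobSGN1.{u} := by
  intro dkb dks el F _ _ r _ ω G hf hb ho hs
  have nz : ∀ k : ℕ, ¬ 23 ∣ k → (k : F) ≠ 0 := fun k h e => by
    have := Fintype.ofFinite F
    have : Fact (Nat.Prime 23) := ⟨by norm_num⟩
    have : CharP F 23 := charP_of_card_eq_prime (Nat.card_eq_fintype_card.symm.trans ho)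
    exact h ((CharP.cast_eq_zero_iff F 23 k).1 e)
  have h5 : (5 : F) ≠ 0 := by exact_mod_cast nz 5 (by decide)
  have h7 : (7 : F) ≠ 0 := by exact_mod_cast nz 7 (by decide)
  have h9 : (9 : F) ≠ 0 := by exact_mod_cast nz 9 (by decide)
  have hp : Fact (ringChar F).Prime := ⟨CharP.char_is_prime F _⟩
  let φ : ZMod (ringChar F) →+* F := ZMod.castHom (dvd_refl _) F
  have ne : ∀ {x : ZMod (ringChar F)}, φ x ≠ 0 → x ≠ 0 := fun h e => h (by rw [e, map_zero])
  have h01 : (0 : ZMod r) ≠ 1 := by obtain rfl := hf.hr; decide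
  have r0 := cast_ne_zero hf.ord
  have h25 : (25 : F) ≠ 0 := by convert mul_ne_zero h5 h5 using 1; norm_num
  have h24 : (24 : F) ≠ 0 := by exact_mod_cast nz 24 (by decide)
  have hr : ∀ j, sc _ (-1) * hm j (-1) ∈ G := fun j => mul_mem (hb.sc _) (hb.hm hs j)
  obtain ⟨t, ⟨g, hg, eg⟩, e0, e1⟩ := quat (K := ZMod (ringChar F)) dks (by simpa using hp.out)
    (n := (r : ZMod (ringChar F)) - 2) (ne (by simpa [map_ofNat] using hf.two))
    (ne (by simpa [map_ofNat] using h5))
    (ne (by
      rw [map_sub, map_natCast, map_ofNat]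
      obtain rfl := hf.hr
      convert h9 using 1; norm_num))
    (ne (by simpa using r0))
    (ne (by
      rw [map_sub, map_sub, map_natCast, map_ofNat]
      obtain rfl := hf.hr
      convert h7 using 1; norm_num))
    (ne (by
      simp only [map_sub, map_mul, map_pow, map_natCast, map_ofNat]
      obtain rfl := hf.hr
      convert h5 using 1; norm_num))
    { carrier := {t | ∃ g ∈ G, ∀ v, g.val *ᵥ ev r (fun i => φ (v i)) = ev r fun i => φ (t v i)}
      one_mem' := ⟨1, one_mem _, fun v => by simp [Function.End.one_def]⟩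
      mul_mem' := by
        rintro s t ⟨g, hg, e1⟩ ⟨k, hk, e2⟩
        exact ⟨g * k, mul_mem hg hk, fun v => by rw [Units.val_mul, ← mulVec_mulVec, e2, e1]; rfl⟩ }
    ⟨_, hr 0, fun v => by
      rw [refl_mulVec]; ext i; unfold ev; split_ifs <;> simp⟩
    ⟨_, hr 1, fun v => by
      rw [refl_mulVec]; ext i; unfold ev; split_ifs <;> simp_all⟩
    ⟨_, mul_mem (mul_mem hb.ph (hr 0)) (inv_mem hb.ph), fun v => by
      rw [conj_mulVec hf.ord, sum_ev h01]; ext i; unfold ev; split_ifs <;> simp [map_ofNat]⟩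
  let B : Matrix (ZMod r) (Fin 2) F := of fun i j => if i = ![0, 1] j then 1 else 0
  have hB : ∀ (u : GL (ZMod r) F) (A : Matrix (Fin 2) (Fin 2) F), u.val * B = B * A ↔
      (∀ i, u.val i 0 = ev r ![A 0 0, A 1 0, 0] i) ∧ ∀ i, u.val i 1 = ev r ![A 0 1, A 1 1, 0] i := by
    intro u A
    rw [← Matrix.ext_iff, ← forall_and]
    refine forall_congr' fun i => ?_
    rw [Fin.forall_fin_two]
    simp only [B, mul_apply, of_apply, Fin.sum_univ_two, ev, mul_ite, mul_one, mul_zero,
      Finset.sum_ite_eq', Finset.mem_univ, if_true]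
    by_cases h0 : i = 0 <;> by_cases h1 : i = 1 <;> simp_all
  let M : GL (Fin 2) F := GeneralLinearGroup.mkOfDetNeZero !![-7 / 25, -24 / 25; 24 / 25, -7 / 25] (by
    rw [det_fin_two_of]; convert one_ne_zero (α := F) using 1; field_simp; norm_num)
  let δ : GL (Fin 2) F := GeneralLinearGroup.mkOfDetNeZero !![-1, 0; 0, (ω : F)] (by simp)
  have hM : M ∈ sec G B := ⟨g, hg, (hB g _).2 ⟨fun i => by
      have := congrFun (eg ![1, 0, 0]) i
      rw [e0, show ev r (fun i => φ (![1, 0, 0] i)) = Pi.single 0 1 by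
        ext i; unfold ev; split_ifs <;> simp_all] at this
      simpa [ev, M, map_ofNat] using this, fun i => by
      have := congrFun (eg ![0, 1, 0]) i
      rw [e1, show ev r (fun i => φ (![0, 1, 0] i)) = Pi.single 1 1 by
        ext i; unfold ev; split_ifs <;> simp_all] at this
      simpa [ev, M, map_ofNat] using this⟩⟩
  have hδ : δ ∈ sec G B := ⟨_, mul_mem hs hb.d, (hB _ _).2 ⟨fun i => by
      rw [hm, dp, ← map_mul, dg_val]
      by_cases h0 : i = 0 <;> simp [ev, δ, h0], fun i => by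
      rw [hm, dp, ← map_mul, dg_val]
      by_cases h0 : i = 1 <;> simp [ev, δ, h0, h01.symm, w_one hf.ord]⟩⟩
  have wn : ∀ m, (ω : F) ^ m = 1 → r ∣ m := (prim hf.ord).dvd_of_pow_eq_one
  obtain ⟨c, c0, _, ⟨u, hu, eu⟩, eu'⟩ := dkb F _ (-1) ω δ M δ hf.nsq hδ rfl
    (fun e => by
      have := wn 2 (by rw [← e]; ring)
      obtain rfl := hf.hr
      omega) hM
    (by simp [M, h24, h25]) (by simp [M, h24, h25]) (.inl (by simp [M, h7, h25])) hδ
    (fun m m1 m5 hm => by
      obtain ⟨s, hs⟩ := (mem_scalars_iff _).1 hm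
      have : (δ ^ m).val = !![(-1) ^ m, 0; 0, (ω : F) ^ m] := by
        rw [Units.val_pow_eq_pow_val, show δ.val = diagonal ![-1, (ω : F)] by
          ext i j; fin_cases i <;> fin_cases j <;> simp [δ], diagonal_pow]
        ext i j; fin_cases i <;> fin_cases j <;> simp
      rw [this] at hs
      have h1 := congrFun (congrFun hs 0) 0
      have h2 := congrFun (congrFun hs 1) 1
      simp at h1 h2
      have h3 := h1.trans h2.symm
      have h4 := wn (m * 2) (by rw [pow_mul, ← h3, ← pow_mul, mul_comm, pow_mul]; simp)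
      obtain rfl := hf.hr
      omega)
  rw [eu', hB] at eu
  obtain ⟨ψ, ψ0, ψ1, hψ⟩ := row_of_fix (κ := 1) (i := 0) (ζ := -1) hu (by rwa [one_mul])
    (Commute.one_left _) (Commute.one_left _)
    (fun e => hf.two (by have := congrArg Units.val e; simp at this; linear_combination -this))
    (by ext i; by_cases h0 : i = 0 <;> simp [eu.1, ev, h0]) (v := Pi.single 1 1)
    (by simpa [eu.2, ev, h01] using c0)
  exact el F r ω G hf hb 0 ψ ψ0 ψ1 hψ

end H4.C11S
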