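/- Carter subgroups versus system normalizers. -/
import Cfsg.Agent.H4.Carter

set_option autoImplicit false
open Cfsg Pointwise

namespace H4

universe u

/-- A complement system reducing into a Carter subgroup has its normalizer inside it. -/
theorem systemNormalizer_le_carter_aux (n : ℕ) :
    ∀ (G : Type u) [Group G] [Finite G] [Group.IsSolvable G], Nat.card G = n →
      ∀ (K : Nat.Primes → Subgroup G) (C : Subgroup G), IsComplementSystem K →
        IsCarterSubgroup C →
        (∀ p : Nat.Primes, ∃ Q, Q ≤ K p ∧ IsPiHallOf {q | q ≠ (p : ℕ)} Q C) →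
        systemNormalizer K ≤ C := by
  induction n using Nat.strong_induction_on with
  | _ n ih =>
  intro G _ _ _ hG K C hK hC hred
  by_cases htriv : (⊤ : Subgroup G) = ⊥
  · exact le_top.trans (htriv.le.trans bot_le)
  obtain ⟨N, p, hN, hne, -, hp, -, hexp, -⟩ := exists_minimal_normal_elemab (⊤ : Subgroup G) htriv
  have hPN : IsPGroup p N := isPGroup_of_exponent hexp
  have hs := QuotientGroup.mk'_surjective N
  have h1 := ih _ (hG ▸ card_quotient_lt N hne) (G ⧸ N) rfl _ _ (isComplementSystem_map hK _ hs)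
    (isCarter_map_mk' hC N) fun q => by
      obtain ⟨Q, h1, h2⟩ := hred q
      exact ⟨_, Subgroup.map_mono h1, isPiHallOf_map h2 _⟩
  rw [systemNormalizer_map_mk' hK, Subgroup.map_le_iff_le_comap, Subgroup.comap_map_eq,
    QuotientGroup.ker_mk', sup_comm] at h1
  obtain ⟨Q, hQK, hQ⟩ := hred ⟨p, hp⟩
  have hQ' := isPiHallOf_sup_pgroup hp hPN hQ
  have h2 : Q = K ⟨p, hp⟩ ⊓ (N ⊔ C) := eq_of_isPiHallOf_of_le hQ'
    (isPiSubgroup_of_le (isComplementSystem_iff.mp hK ⟨p, hp⟩).1 inf_le_left)
    (le_inf hQK hQ'.1) inf_le_right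
  rw [carter_eq_normalizer_inf hp hPN hC hQ]
  refine le_inf ?_ h1
  intro g hg
  rw [← conj_smul_eq_iff_mem_normalizer, h2, Subgroup.smul_inf, mem_systemNormalizer.mp hg ⟨p, hp⟩,
    Subgroup.conj_smul_eq_self_of_mem (h1 hg)]

variable {G : Type u} [Group G] [Finite G]

/-- Every subgroup of a solvable group has a complement system reducing into it. -/
theorem exists_system_reducing [Group.IsSolvable G] (C : Subgroup G) :
    ∃ K : Nat.Primes → Subgroup G, IsComplementSystem K ∧
      ∀ p : Nat.Primes, ∃ Q, Q ≤ K p ∧ IsPiHallOf {q | q ≠ (p : ℕ)} Q C := by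
  have : ∀ p : Nat.Primes, ∃ K : Subgroup G, IsPiHall {q | q ≠ (p : ℕ)} K ∧
      ∃ Q, Q ≤ K ∧ IsPiHallOf {q | q ≠ (p : ℕ)} Q C := by
    intro p
    obtain ⟨Q, hQ⟩ := exists_isPiHallOf {q | q ≠ (p : ℕ)} C
    obtain ⟨K, hK, hle⟩ := exists_isPiHall_ge (K := Q) hQ.2.1
    exact ⟨K, hK, Q, hle, hQ⟩
  choose K h1 h2 using this
  exact ⟨K, isComplementSystem_iff.mpr h1, h2⟩

theorem exists_systemNormalizer_le_carter [Group.IsSolvable G] {C : Subgroup G}
    (hC : IsCarterSubgroup C) :
    ∃ K : Nat.Primes → Subgroup G, IsComplementSystem K ∧ systemNormalizer K ≤ C := by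
  obtain ⟨K, hK, hred⟩ := exists_system_reducing C
  exact ⟨K, hK, systemNormalizer_le_carter_aux _ G rfl K C hK hC hred⟩

theorem exists_carter_ge_systemNormalizer [Group.IsSolvable G] {K : Nat.Primes → Subgroup G}
    (hK : IsComplementSystem K) : ∃ C : Subgroup G, IsCarterSubgroup C ∧ systemNormalizer K ≤ C := by
  obtain ⟨C, hC⟩ := exists_isCarter G
  obtain ⟨L, hL, hle⟩ := exists_systemNormalizer_le_carter hC
  obtain ⟨g, hg⟩ := system_conj hL hK
  refine ⟨_, isCarter_conj_smul hC g, ?_⟩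
  rw [← funext hg, systemNormalizer_conj_smul]
  exact Subgroup.pointwise_smul_le_pointwise_smul_iff.mpr hle

/-- In a nilpotent-by-nilpotent group a Carter subgroup is a system normalizer. -/
theorem carter_eq_systemNormalizer (F : Subgroup G) [hFn : F.Normal] [Group.IsNilpotent F]
    [Group.IsNilpotent (G ⧸ F)] {C : Subgroup G} (hC : IsCarterSubgroup C) :
    ∃ K : Nat.Primes → Subgroup G, IsComplementSystem K ∧ C = systemNormalizer K := by
  have : Group.IsSolvable G := (Group.isSolvable_iff_subgroup_quotient F).mpr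
    ⟨inferInstance, inferInstance⟩
  have := hC.1
  obtain ⟨K, hK, hred⟩ := exists_system_reducing C
  refine ⟨K, hK, le_antisymm ?_ (systemNormalizer_le_carter_aux _ G rfl K C hK hC hred)⟩
  have htop : C.map (QuotientGroup.mk' F) = ⊤ :=
    normalizerCondition_iff_only_full_group_self_normalizing.mp
      (Group.normalizerCondition_of_isNilpotent (G := G ⧸ F)) _ (isCarter_map_mk' hC F).2
  refine le_iInf fun p => ?_
  obtain ⟨Q, hQK, hQ⟩ := hred p
  obtain ⟨R, hR⟩ := exists_isPiHallOf {q | q ≠ (p : ℕ)} F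
  have hKp := isComplementSystem_iff.mp hK p
  have hRn : R.Normal := by
    rw [← Subgroup.normalizer_eq_top_iff, eq_top_iff, ← Subgroup.normalizer_eq_top F]
    exact normalizer_le_normalizer_of_isPiHallOf hR (le_normalizer_isPiHallOf_of_nilpotent hR)
  have hpi : IsPiSubgroup {q | q ≠ (p : ℕ)} (R ⊔ Q) := isPiSubgroup_sup_of_normal hR.2.1 hQ.2.1
  have hH : IsPiHall {q | q ≠ (p : ℕ)} (R ⊔ Q) := by
    refine ⟨hpi, fun q hq hqp hd => ?_⟩
    rw [index_eq_index_map_mul_relIndex _ F] at hd
    rcases (Nat.Prime.dvd_mul hq).mp hd with h | h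
    · have h1 := isPiHallOf_map hQ (QuotientGroup.mk' F)
      rw [htop, isPiHallOf_top] at h1
      exact h1.2 q hq hqp (h.trans (Subgroup.index_dvd_of_le (Subgroup.map_mono le_sup_right)))
    · exact hR.2.2 q hq hqp (h.trans (Subgroup.relIndex_dvd_of_le_left F le_sup_left))
  rw [← eq_of_isPiHall_of_le hH hKp.1 (sup_le (le_isPiHall_of_normal hKp hR.2.1) hQK), sup_comm]
  exact (le_normalizer_isPiHallOf_of_nilpotent hQ).trans
    Subgroup.normalizer_le_normalizer_sup_normal

theorem isCarter_systemNormalizer (F : Subgroup G) [hFn : F.Normal] [Group.IsNilpotent F]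
    [Group.IsNilpotent (G ⧸ F)] {K : Nat.Primes → Subgroup G} (hK : IsComplementSystem K) :
    IsCarterSubgroup (systemNormalizer K) := by
  have : Group.IsSolvable G := (Group.isSolvable_iff_subgroup_quotient F).mpr
    ⟨inferInstance, inferInstance⟩
  obtain ⟨C, hC⟩ := exists_isCarter G
  obtain ⟨L, hL, rfl⟩ := carter_eq_systemNormalizer F hC
  obtain ⟨g, hg⟩ := system_conj hL hK
  rw [← funext hg, systemNormalizer_conj_smul]
  exact isCarter_conj_smul hC g

end H4
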