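/- Products of two abelian or nilpotent groups: normal subgroups in and above the factors. -/
import Cfsg.Agent.H4.KegelC
import Cfsg.Agent.S0572

set_option autoImplicit false
open Cfsg Pointwise

namespace H4

universe u

section
variable {G : Type u} [Group G] [Finite G]

/-- Hall subgroups of a normal subgroup and of a supplement generate a Hall subgroup. -/
theorem isPiHall_sup_of_normal {π : Set ℕ} {R F Q C : Subgroup G} [F.Normal] [R.Normal]
    (hR : IsPiHallOf π R F) (hQ : IsPiHallOf π Q C) (h : F ⊔ C = ⊤) : IsPiHall π (R ⊔ Q) := by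
  refine ⟨isPiSubgroup_sup_of_normal hR.2.1 hQ.2.1, fun q hq hqp hd => ?_⟩
  rw [index_eq_index_map_mul_relIndex _ F] at hd
  rcases (Nat.Prime.dvd_mul hq).mp hd with h1 | h1
  · have h2 := isPiHallOf_map hQ (QuotientGroup.mk' F)
    have h3 := congrArg (Subgroup.map (QuotientGroup.mk' F)) h
    rw [Subgroup.map_sup, (Subgroup.map_eq_bot_iff F).mpr (by rw [QuotientGroup.ker_mk']),
      bot_sup_eq, Subgroup.map_top_of_surjective _ (QuotientGroup.mk'_surjective F)] at h3
    rw [h3, isPiHallOf_top] at h2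
    exact h2.2 q hq hqp (h1.trans (Subgroup.index_dvd_of_le (Subgroup.map_mono le_sup_right)))
  · exact hR.2.2 q hq hqp (h1.trans (Subgroup.relIndex_dvd_of_le_left F le_sup_left))

theorem normal_of_isPiHallOf_nilpotent {π : Set ℕ} {R F : Subgroup G} [F.Normal]
    [Group.IsNilpotent F] (hR : IsPiHallOf π R F) : R.Normal := by
  rw [← Subgroup.normalizer_eq_top_iff, eq_top_iff, ← Subgroup.normalizer_eq_top F]
  exact normalizer_le_normalizer_of_isPiHallOf hR (le_normalizer_isPiHallOf_of_nilpotent hR)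

/-- `G = A B = A K = B K` with `A`, `B`, `K` nilpotent and `K` normal is nilpotent (Kegel). -/
theorem isNilpotent_of_trifactorized {A B K : Subgroup G} [K.Normal] [Group.IsNilpotent A]
    [Group.IsNilpotent B] [Group.IsNilpotent K] (hf : Fact2 A B) (hA : K ⊔ A = ⊤)
    (hB : K ⊔ B = ⊤) : Group.IsNilpotent G := by
  apply isNilpotent_of_normal_sylow
  intro p hp
  obtain ⟨P, Q, R, hP, hQ, hR, he⟩ := hf.exists_sylow_mul hp
  obtain ⟨S, hS⟩ := exists_sylowOf hp K
  have := normal_of_isPiHallOf_nilpotent hS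
  have hSR := le_isPiHall_of_normal hR hS.2.1
  have hPR : P ≤ R := fun x hx => by
    rw [← SetLike.mem_coe, he]; exact ⟨x, hx, 1, Q.one_mem, mul_one x⟩
  have hQR : Q ≤ R := fun x hx => by
    rw [← SetLike.mem_coe, he]; exact ⟨1, P.one_mem, x, hx, one_mul x⟩
  refine ⟨R, ?_, hR⟩
  rw [← Subgroup.normalizer_eq_top_iff]
  refine hf.eq_top ?_ ?_
  · rw [← eq_of_isPiHall_of_le (isPiHall_sup_of_normal hS hP hA) hR.1 (sup_le hSR hPR), sup_comm]
    exact (le_normalizer_isPiHallOf_of_nilpotent hP).trans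
      Subgroup.normalizer_le_normalizer_sup_normal
  · rw [← eq_of_isPiHall_of_le (isPiHall_sup_of_normal hS hQ hB) hR.1 (sup_le hSR hQR), sup_comm]
    exact (le_normalizer_isPiHallOf_of_nilpotent hQ).trans
      Subgroup.normalizer_le_normalizer_sup_normal

omit [Finite G] in
theorem comm_of_mem {A : Subgroup G} [h : IsMulCommutative A] {a b : G} (ha : a ∈ A) (hb : b ∈ A) :
    a * b = b * a :=
  congrArg Subtype.val (h.is_comm.comm ⟨a, ha⟩ ⟨b, hb⟩)

omit [Finite G] in
theorem commutator_comm_of_fact {A B : Subgroup G} [IsMulCommutative A] [IsMulCommutative B]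
    (hf : Fact2 A B) : IsMulCommutative (commutator G) := by
  have h := Cfsg.Agent.S0572.result A B hf
  rw [derivedSeries_succ, derivedSeries_one, Subgroup.commutator_eq_bot_iff_le_centralizer] at h
  exact ⟨⟨fun a b => Subtype.ext (h b.2 a a.2)⟩⟩

omit [Finite G] in
theorem centralizer_commutator_inf_eq_bot {A B : Subgroup G} [IsMulCommutative A]
    [IsMulCommutative B] (hf : Fact2 A B) (hA : ∀ N : Subgroup G, N.Normal → N ≤ A → N = ⊥)
    (hB : ∀ N : Subgroup G, N.Normal → N ≤ B → N = ⊥) :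
    A ⊓ Subgroup.centralizer (commutator G : Set G) = ⊥ := by
  have : (A ⊔ commutator G).Normal := Subgroup.Normal.of_commutator_le G le_sup_right
  have h1 : zc (A ⊔ commutator G) ≤ A := by
    intro z hz
    obtain ⟨a, ha, b, hb, rfl⟩ := hf z
    have h2 : b ∈ B ⊓ Subgroup.center G := by
      refine ⟨hb, Subgroup.mem_center_iff.mpr fun g => ?_⟩
      obtain ⟨a', ha', b', hb', rfl⟩ := hf g
      have h3 := hz.2 a' (Subgroup.mem_sup_left ha')
      rw [← mul_assoc, comm_of_mem ha' ha, mul_assoc, mul_assoc, mul_right_inj] at h3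
      rw [mul_assoc, comm_of_mem hb' hb, ← mul_assoc, h3, mul_assoc]
    have h3 : (B ⊓ Subgroup.center G).Normal := ⟨fun x hx g => by
      rwa [Subgroup.mem_center_iff.mp hx.2 g, mul_inv_cancel_right]⟩
    rw [hB _ h3 inf_le_left, Subgroup.mem_bot] at h2
    rwa [h2, mul_one]
  rw [eq_bot_iff, ← hA _ inferInstance h1]
  refine le_inf (inf_le_left.trans le_sup_left) ?_
  rw [Subgroup.le_centralizer_iff]
  exact sup_le (fun a ha x hx => comm_of_mem hx.1 ha) fun k hk x hx => (hx.2 k hk).symm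

theorem exists_normal_le_of_abelian_factors [Nontrivial G] {A B : Subgroup G} [IsMulCommutative A]
    [IsMulCommutative B] (hf : Fact2 A B) :
    ∃ N : Subgroup G, N.Normal ∧ N ≠ ⊥ ∧ (N ≤ A ∨ N ≤ B) := by
  by_contra hcon
  have hA : ∀ N : Subgroup G, N.Normal → N ≤ A → N = ⊥ := fun N h1 h2 =>
    by_contra fun h => hcon ⟨N, h1, h, Or.inl h2⟩
  have hB : ∀ N : Subgroup G, N.Normal → N ≤ B → N = ⊥ := fun N h1 h2 =>
    by_contra fun h => hcon ⟨N, h1, h, Or.inr h2⟩
  have h1 := centralizer_commutator_inf_eq_bot hf hA hB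
  have h2 := centralizer_commutator_inf_eq_bot hf.symm hB hA
  have hK := commutator_comm_of_fact hf
  set K := commutator G
  have hKb : K ≠ ⊥ := by
    intro h
    rw [h, Subgroup.coe_bot, Subgroup.centralizer_eq_top_iff_subset.mpr (by simp), inf_top_eq]
      at h1 h2
    exact bot_ne_top (hf.eq_top h1.le h2.le)
  set X := (K ⊔ A) ⊓ (K ⊔ B)
  have hKX : K ≤ X := le_inf le_sup_left le_sup_left
  have hfX : ∀ g ∈ X, ∃ a ∈ X ⊓ A, ∃ b ∈ X ⊓ B, g = a * b := by
    intro g hg
    obtain ⟨a, ha, b, hb, rfl⟩ := hf g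
    refine ⟨a, ⟨⟨Subgroup.mem_sup_right ha, ?_⟩, ha⟩, b, ⟨⟨?_, Subgroup.mem_sup_right hb⟩, hb⟩, rfl⟩
    · simpa using (K ⊔ B).mul_mem hg.2 ((K ⊔ B).inv_mem (Subgroup.mem_sup_right hb))
    · simpa using (K ⊔ A).mul_mem ((K ⊔ A).inv_mem (Subgroup.mem_sup_right ha)) hg.1
  have hsup : ∀ C : Subgroup G, X ≤ K ⊔ C → K.subgroupOf X ⊔ C.subgroupOf X = ⊤ := by
    intro C hC
    rw [eq_top_iff]
    intro x _
    have hx : (x : G) ∈ ((K ⊔ C : Subgroup G) : Set G) := hC x.2
    rw [Subgroup.normal_mul] at hx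
    obtain ⟨k, hk, c, hc, he⟩ := hx
    have he' : k * c = x := he
    have hcX : c ∈ X := by
      rw [← eq_inv_mul_iff_mul_eq] at he'
      exact he' ▸ X.mul_mem (X.inv_mem (hKX hk)) x.2
    rw [show x = ⟨k, hKX hk⟩ * ⟨c, hcX⟩ from Subtype.ext he'.symm]
    exact Subgroup.mul_mem_sup hk hc
  have := H2.isNilpotent_of_isMulCommutative A
  have := H2.isNilpotent_of_isMulCommutative B
  have := H2.isNilpotent_of_isMulCommutative K
  have := isNilpotent_subgroupOf A X
  have := isNilpotent_subgroupOf B X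
  have := isNilpotent_subgroupOf K X
  have hX : Group.IsNilpotent X := isNilpotent_of_trifactorized (fact2_subgroupOf hfX)
    (hsup A inf_le_left) (hsup B inf_le_right)
  obtain ⟨z, hz, hz1⟩ := exists_ne_one_of_ne_bot (zc_ne_bot (ne_bot_of_le_ne_bot hKb hKX))
  obtain ⟨a, ha, b, hb, rfl⟩ := hfX z hz.1
  have hb1 : b ∈ B ⊓ Subgroup.centralizer (K : Set G) := by
    refine ⟨hb.2, fun k hk => ?_⟩
    obtain ⟨a', ha', b', hb', rfl⟩ := hfX k (hKX hk)
    have h3 := hz.2 a' ha'.1
    rw [← mul_assoc, comm_of_mem ha'.2 ha.2, mul_assoc, mul_assoc, mul_right_inj] at h3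
    rw [mul_assoc, comm_of_mem hb'.2 hb.2, ← mul_assoc, h3, mul_assoc]
  rw [h2, Subgroup.mem_bot] at hb1
  rw [hb1, mul_one] at hz hz1
  exact hz1 (Subgroup.mem_bot.mp (h1 ▸ (⟨ha.2, fun k hk => hz.2 k (hKX hk)⟩ :
    a ∈ A ⊓ Subgroup.centralizer (K : Set G))))

/-- A `p`-subgroup whose normalizer supplements a minimal normal `p`-subgroup centralizes it. -/
theorem le_centralizer_minimal_normal_of_supplement {p : ℕ} (hp : p.Prime) {N A P : Subgroup G}
    [hN : N.Normal] (hNp : IsPGroup p N) (hmin : ∀ K : Subgroup G, K.Normal → K ≤ N → K = ⊥ ∨ K = N)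
    (hA : N ⊔ A = ⊤) (hP : IsPGroup p P) (hn : A ≤ Subgroup.normalizer (P : Set G)) :
    P ≤ Subgroup.centralizer (N : Set G) := by
  have := Fact.mk hp
  have h1 : (P ⊔ N).Normal := by
    rw [← Subgroup.normalizer_eq_top_iff, eq_top_iff, ← hA]
    exact sup_le (le_sup_right.trans Subgroup.le_normalizer)
      (hn.trans Subgroup.normalizer_le_normalizer_sup_normal)
  have := (hP.to_sup_of_normal_right hNp).isNilpotent
  exact le_sup_left.trans (H2.le_centralizer_of_minimal_normal hmin (P ⊔ N))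

end

theorem exists_normal_ge_factor_aux (n : ℕ) : ∀ (G : Type u) [Group G] [Finite G],
    Nat.card G = n → ∀ A B : Subgroup G, Group.IsNilpotent A → Group.IsNilpotent B → Fact2 A B →
      (A ≠ ⊤ ∨ B ≠ ⊤) → ∃ N : Subgroup G, N.Normal ∧ N ≠ ⊤ ∧ (A ≤ N ∨ B ≤ N) := by
  induction n using Nat.strong_induction_on with
  | _ n ih =>
  intro G _ _ hG A B hA hB hf hne
  by_cases hnil : Group.IsNilpotent G
  · have key : ∀ C : Subgroup G, C ≠ ⊤ → ∃ N : Subgroup G, N.Normal ∧ N ≠ ⊤ ∧ C ≤ N := by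
      intro C hC
      obtain ⟨M, hM, hle⟩ := (eq_top_or_exists_le_coatom C).resolve_left hC
      exact ⟨M, Subgroup.NormalizerCondition.normal_of_coatom M
        Group.normalizerCondition_of_isNilpotent hM, hM.1, hle⟩
    rcases hne with h | h
    · obtain ⟨N, h1, h2, h3⟩ := key A h
      exact ⟨N, h1, h2, Or.inl h3⟩
    · obtain ⟨N, h1, h2, h3⟩ := key B h
      exact ⟨N, h1, h2, Or.inr h3⟩
  have hAt : A ≠ ⊤ := fun h => hnil (Group.isNilpotent_top.mp (h ▸ hA))
  have hBt : B ≠ ⊤ := fun h => hnil (Group.isNilpotent_top.mp (h ▸ hB))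
  by_cases hex : ∃ N : Subgroup G, N.Normal ∧ N ≠ ⊥ ∧ (N ⊔ A ≠ ⊤ ∨ N ⊔ B ≠ ⊤)
  · obtain ⟨N, hN, hb, h⟩ := hex
    have hs := QuotientGroup.mk'_surjective N
    have h0 : ∀ C : Subgroup G, N ⊔ C ≠ ⊤ → C.map (QuotientGroup.mk' N) ≠ ⊤ := fun C hC ht => hC (by
      rw [sup_comm, ← QuotientGroup.ker_mk' N, ← Subgroup.comap_map_eq, ht, Subgroup.comap_top])
    obtain ⟨M, h1, h2, h3⟩ := ih _ (hG ▸ card_quotient_lt N hb) (G ⧸ N) rfl _ _
      (isNilpotent_map A _) (isNilpotent_map B _) (hf.map _ hs) (h.imp (h0 A) (h0 B))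
    refine ⟨M.comap (QuotientGroup.mk' N), inferInstance, fun ht => h2 ?_,
      h3.imp Subgroup.map_le_iff_le_comap.mp Subgroup.map_le_iff_le_comap.mp⟩
    rw [← Subgroup.map_comap_eq_self_of_surjective hs M, ht, Subgroup.map_top_of_surjective _ hs]
  exfalso
  push Not at hex
  have := kegel_wielandt hA hB hf
  obtain ⟨N, p, hN, hb, -, hp, hc, hexp, hmin⟩ := exists_minimal_normal_elemab (⊤ : Subgroup G)
    (ne_bot_of_gt hAt.lt_top)
  have hNp := isPGroup_of_exponent hexp
  obtain ⟨hNA, hNB⟩ := hex N hN hb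
  have hBN : B ⊓ N = ⊥ := by
    have h1 : (B ⊓ N).Normal := by
      rw [← Subgroup.normalizer_eq_top_iff, eq_top_iff, ← hNB]
      refine sup_le (fun x hx => Subgroup.centralizer_le_normalizer _ fun y hy =>
        comm_of_mem hy.2 hx) ?_
      exact (le_inf Subgroup.le_normalizer (by rw [Subgroup.normalizer_eq_top]; exact le_top)).trans
        Subgroup.inf_normalizer_le_normalizer_inf
    by_contra h2
    exact hBt (by rw [← (hex _ h1 h2).2, sup_eq_right.mpr inf_le_left])
  have hpA : p ∣ Nat.card A := by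
    have h1 := card_sup_mul_card_inf N B
    rw [hNB, inf_comm, hBN, Subgroup.card_bot, mul_one, Subgroup.card_top, ← B.index_mul_card] at h1
    refine (dvd_card_of_isPGroup hp hNp hb).trans ?_
    rw [← Nat.eq_of_mul_eq_mul_right Nat.card_pos h1]
    exact hf.symm.index_dvd
  obtain ⟨P, hP⟩ := exists_sylowOf hp A
  have hnP := le_normalizer_isPiHallOf_of_nilpotent hP
  have h1 := le_centralizer_minimal_normal_of_supplement hp hNp hmin hNA
    (isPGroup_of_isPiSubgroup_singleton hP.2.1) hnP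
  have h2 : P.Normal := by
    rw [← Subgroup.normalizer_eq_top_iff, eq_top_iff, ← hNA]
    exact sup_le ((Subgroup.le_centralizer_iff.mp h1).trans (Subgroup.centralizer_le_normalizer _))
      hnP
  have h3 : P ≠ ⊥ := by
    rintro rfl
    exact hP.2.2 p hp rfl (by rwa [Subgroup.relIndex_bot_left])
  exact hAt (by rw [← (hex P h2 h3).1, sup_eq_right.mpr hP.1])

end H4
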