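import Cfsg.Agent.H4.JMain
import Cfsg.Agent.H87.BrSmall
import Cfsg.Agent.H61.SL2Lift

/-! The subgroup `L₂(16):2` of a group of type `J₃`. -/

set_option autoImplicit false
set_option maxRecDepth 100000

namespace H4
open H49 H71 Subgroup Matrix.SpecialLinearGroup
open scoped MatrixGroups

theorem sl2_four {F : Type*} [Field F] (h2 : (2 : F) = 0) (A : SL(2, F)) (h : A ^ 4 = 1) :
    A ^ 2 = 1 := by
  have hd := A.2
  rw [Matrix.det_fin_two] at hd
  have h1 : A.1 * A.1 = (A.1 0 0 + A.1 1 1) • A.1 + 1 := by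
    ext i j
    fin_cases i <;> fin_cases j <;> simp [Matrix.mul_apply, Fin.sum_univ_two]
    · linear_combination -hd - h2
    · ring
    · ring
    · linear_combination -hd - h2
  have h4 : A.1 * A.1 * (A.1 * A.1) = 1 := by
    have := congrArg Subtype.val h
    simpa [pow_succ, mul_assoc] using this
  set t := A.1 0 0 + A.1 1 1
  have h5 : (t * t) • (A.1 * A.1) = 0 := by
    have h6 : (t • A.1 + 1) * (t • A.1 + 1) = (t * t) • (A.1 * A.1) + (2 * t) • A.1 + 1 := by
      simp only [add_mul, mul_add, smul_mul_assoc, mul_smul_comm, one_mul, mul_one]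
      module
    rw [← h1, h4, h2, zero_mul, zero_smul, add_zero] at h6
    simpa using h6
  have h7 : t = 0 := by
    have := congrArg (fun M => (M * (A.1 * A.1)) 0 0) h5
    simpa [h4] using this
  rw [h7, zero_smul, zero_add] at h1
  exact Subtype.ext (by simpa [pow_two] using h1)

theorem exists_index_two {G : Type*} [Group G] {N : Subgroup G} {c : G}
    (h1 : c ∈ normalizer (N : Set G)) (h2 : c * c ∈ N) (h3 : c ∉ N) :
    ∃ H : Subgroup G, N ≤ H ∧ (N.subgroupOf H).index = 2 := by
  have k1 : ∀ {x}, x ∈ N → c * x * c⁻¹ ∈ N := fun hx => (mem_normalizer_iff.mp h1 _).mp hx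
  have k2 : ∀ {x}, x ∈ N → c⁻¹ * x * c ∈ N := fun hx => by
    simpa using (mem_normalizer_iff.mp (inv_mem h1) _).mp hx
  let H : Subgroup G :=
    { carrier := {b | b * c ∈ N ∨ b ∈ N}
      one_mem' := Or.inr N.one_mem
      mul_mem' := by
        rintro a b (ha | ha) (hb | hb)
        · right; convert N.mul_mem (N.mul_mem ha (k2 hb)) (N.inv_mem h2) using 1; group
        · left; convert N.mul_mem ha (k2 hb) using 1; group
        · left; rw [mul_assoc]; exact N.mul_mem ha hb
        · exact Or.inr (N.mul_mem ha hb)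
      inv_mem' := by
        rintro a (ha | ha)
        · left; convert N.mul_mem (k1 (N.inv_mem ha)) h2 using 1; group
        · exact Or.inr (N.inv_mem ha) }
  exact ⟨H, fun _ => Or.inr, index_eq_two_iff_exists_notMem_and.mpr
    ⟨⟨c, Or.inl h2⟩, h3, fun b => b.2⟩⟩

namespace M3
variable {G : Type*} [Group G] [Finite G] {j : X1.X →* G}

theorem l216 (T : J3T j) (π : X →* G) (hπ : ∀ x, π x = 1 → x ^ 3 = 1) (h8 : π (tau ^ 8) = 1) :
    ∃ (H : Subgroup G) (N : Subgroup H) (K : Type) (_ : Field K) (_ : Fintype K),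
      N.Normal ∧ N.index = 2 ∧ Fintype.card K = 16 ∧ Nonempty (N ≃* SL(2, K)) := by
  have : Fact (Nat.Prime 17) := ⟨by norm_num⟩
  let N0 : Subgroup X := closure {s | s ∈ [s17, b16]}
  let N := N0.map π
  have w0 : ∀ w, π (wd [s17, b16] w) ∈ N := fun w => ⟨_, wd_mem_closure _ w, rfl⟩
  have ms : π s17 ∈ N := ⟨_, subset_closure (by simp), rfl⟩
  have mb : π b16 ∈ N := ⟨_, subset_closure (by simp), rfl⟩
  have hc : Nat.card N ≤ 4080 := by
    refine (Nat.card_le_card_of_surjective _ (π.subgroupMap_surjective N0)).trans ?_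
    exact (card_le_of_le (closure_mono fun _ hx => List.mem_append_left _ hx)).trans
      ((card_le_of_ubOK nL_ub).trans (by decide +kernel))
  let x : N := ⟨_, ms⟩
  let y : N := ⟨_, mb⟩
  have x17 : x ^ 17 = 1 := Subtype.ext (by
    show π s17 ^ 17 = 1; rw [← map_pow, show s17 ^ 17 = 1 by decide +kernel, map_one])
  have y2 : y ^ 2 = 1 := Subtype.ext (by
    show π b16 ^ 2 = 1; rw [← map_pow, show b16 ^ 2 = 1 by decide +kernel, map_one])
  have xy : (x * y) ^ 5 = 1 := Subtype.ext (by
    show (π s17 * π b16) ^ 5 = 1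
    rw [← map_mul, ← map_pow, show (s17 * b16) ^ 5 = 1 by decide +kernel, map_one])
  have gen : ∀ K : Subgroup N, x ∈ K → y ∈ K → K = ⊤ := fun K h1 h2 => by
    rw [eq_top_iff]
    rintro ⟨w, hw⟩ -
    obtain ⟨v, hv, rfl⟩ := id hw
    have : N0 ≤ (K.map N.subtype).comap π := (closure_le _).mpr (by
      intro s hs
      simp only [List.mem_cons, List.not_mem_nil, or_false, Set.mem_ofPred_eq] at hs
      rcases hs with rfl | rfl
      exacts [⟨x, h1, rfl⟩, ⟨y, h2, rfl⟩])
    obtain ⟨u, hu, e⟩ := this hv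
    exact (show u = ⟨π v, hw⟩ from Subtype.ext e) ▸ hu
  have quo : ∀ (K : Subgroup N) [K.Normal], x ∈ K → y ∈ K := fun K _ h => by
    rw [← QuotientGroup.eq_one_iff] at h ⊢
    have e1 := congrArg (QuotientGroup.mk' K) xy
    have e2 := congrArg (QuotientGroup.mk' K) y2
    simp only [map_pow, map_mul, map_one, QuotientGroup.mk'_apply, h, one_mul] at e1 e2
    rwa [show 5 = 2 * 2 + 1 from rfl, pow_succ, pow_mul, e2, one_pow, one_mul] at e1
  have hG : commutator N = ⊤ := by
    have hx : x ∈ commutator N := by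
      rw [← Abelianization.ker_of, MonoidHom.mem_ker]
      have e1 := congrArg Abelianization.of xy
      have e2 := congrArg Abelianization.of y2
      have e3 := congrArg Abelianization.of x17
      simp only [map_pow, map_mul, map_one, mul_pow] at e1 e2 e3
      have e4 : Abelianization.of x ^ 10 = 1 := by
        have := congrArg (· ^ 2) e1
        simp only [mul_pow, ← pow_mul, one_pow] at this
        rwa [show 5 * 2 = 2 * 5 from rfl, pow_mul (Abelianization.of y), e2, one_pow, mul_one] at this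
      exact orderOf_eq_one_iff.mp (Nat.eq_one_of_dvd_coprimes (by norm_num : Nat.Coprime 10 17)
        (orderOf_dvd_of_pow_eq_one e4) (orderOf_dvd_of_pow_eq_one e3))
    exact gen _ hx (quo _ hx)
  have ne : ∀ {v : X}, v ^ 3 ≠ 1 → π v ≠ 1 := fun h e => h (hπ _ e)
  have y1 : y ≠ 1 := fun e => ne (v := b16) (by decide +kernel) (congrArg Subtype.val e)
  obtain ⟨P⟩ : Nonempty (Sylow 17 N) := inferInstance
  have hP : ¬ (P : Subgroup N).Normal := fun hn => by
    obtain ⟨g, hg⟩ := exists_conj_sylow P x17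
    obtain ⟨k, hk⟩ := P.isPGroup' ⟨y, quo _ (by simpa [mul_assoc] using hn.conj_mem _ hg g⁻¹)⟩
    exact y1 (orderOf_eq_one_iff.mp (Nat.eq_one_of_dvd_coprimes
      (Nat.Coprime.pow_right k (by norm_num : Nat.Coprime 2 17)) (orderOf_dvd_of_pow_eq_one y2)
      (orderOf_dvd_of_pow_eq_one (congrArg Subtype.val hk))))
  have cent : ∀ c : G, c * π s17 = π s17 * c → c ^ 17 = 1 := fun c hc => by
    obtain ⟨S, hS⟩ := (H17.isPGroup_zpowers (p := 17) (k := 1) (x := π s17) (by
      rw [pow_one]; exact congrArg Subtype.val x17)).exists_le_sylow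
    obtain ⟨h1, h2, -⟩ := T.syl17 S
    have e := (eq_zpowers h1 (hS (mem_zpowers _)) (ne (by decide +kernel))).2
    have : c ∈ (S : Subgroup G) := by rw [← h2, ← e]; exact mem_cent_zpowers.mpr hc
    exact congrArg Subtype.val (h1 ▸ pow_card_eq_one' (x := (⟨c, this⟩ : S)))
  have h2 : ∀ K : Subgroup N, K.Normal → Nat.card K ≠ 2 := fun K hK e => by
    obtain ⟨c, hc1, hc2⟩ := (Nat.card_eq_two_iff' (1 : K)).mp e
    have e1 : (⟨_, hK.conj_mem _ c.2 x⟩ : K) = c := hc2 _ fun e' => hc1 (Subtype.ext (by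
      simpa using congrArg Subtype.val e'))
    have e2 : x * c = c * x := mul_inv_eq_iff_eq_mul.mp (congrArg Subtype.val e1)
    have e3 : c ^ 17 = 1 := Subtype.ext (Subtype.ext (cent _ (congrArg Subtype.val e2).symm))
    exact hc1 (orderOf_eq_one_iff.mp (Nat.eq_one_of_dvd_coprimes (by norm_num : Nat.Coprime 2 17)
      (e ▸ orderOf_dvd_natCard c) (orderOf_dvd_of_pow_eq_one e3)))
  rcases H87.brauer_small hG (hc.trans_lt (by norm_num)) hP h2 with
    ⟨F, _, _, hF, -, ⟨e⟩⟩ | ⟨m, F, _, _, hF, hm, -, ⟨e⟩⟩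
  · exfalso
    have : Fact (Nat.Prime 5) := ⟨by norm_num⟩
    have o5 : orderOf (x * y) = 5 := orderOf_eq_prime xy fun e' =>
      ne (v := s17 * b16) (by decide +kernel) ((map_mul π _ _).trans (congrArg Subtype.val e'))
    have h5 := orderOf_dvd_natCard (x * y)
    have h6 := H88.two_mul_card_psl_two (F := F) (by rw [hF]; decide)
    rw [o5, Nat.card_congr e.toEquiv] at h5
    rw [hF] at h6
    omega
  have hF' : Fintype.card F = 16 := by omega
  have h20 : (2 : F) = 0 := (H61.two_eq_zero_iff_even).mpr (by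
    rw [Nat.card_eq_fintype_card, hF']; decide)
  let E := e.trans (H61.slEquivPslOfTwo h20).symm
  have c2 : π (tau ^ 2) * π (tau ^ 2) ∈ N := by rw [← map_mul, ph_sq]; exact w0 _
  obtain ⟨H, h1, h3⟩ := exists_index_two (N := N) (c := π (tau ^ 2)) (by
    refine mem_normalizer_fintype ?_
    rintro _ ⟨v, hv, rfl⟩
    have : N0 ≤ (N.comap π).comap (MulAut.conj (tau ^ 2)).toMonoidHom := (closure_le _).mpr (by
      intro s hs
      simp only [List.mem_cons, List.not_mem_nil, or_false, Set.mem_ofPred_eq] at hs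
      rcases hs with rfl | rfl
      · show π (tau ^ 2 * s17 * (tau ^ 2)⁻¹) ∈ N
        rw [ph_s, map_pow]; exact pow_mem ms 4
      · show π (tau ^ 2 * b16 * (tau ^ 2)⁻¹) ∈ N
        rw [ph_b]; exact w0 _)
    rw [← map_inv, ← map_mul, ← map_mul]
    exact this hv) c2 fun hm' => by
      have e4 : (⟨_, hm'⟩ : N) ^ 4 = 1 := Subtype.ext (by
        show π (tau ^ 2) ^ 4 = 1; rw [← map_pow, ← pow_mul, h8])
      have e5 := sl2_four h20 (E ⟨_, hm'⟩) (by rw [← map_pow, e4, map_one])
      rw [← map_pow, map_eq_one_iff _ E.injective] at e5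
      exact ne (v := (tau ^ 2) ^ 2) (by decide +kernel) ((map_pow π _ _).trans (congrArg Subtype.val e5))
  exact ⟨H, N.subgroupOf H, F, inferInstance, inferInstance, normal_of_index_eq_two h3, h3, hF',
    ⟨(subgroupOfEquivOfLe h1).trans E⟩⟩

theorem tau8 : tau ^ 8 ∈ center X := by
  rw [Subgroup.mem_center_iff]
  have : (⊤ : Subgroup X) ≤ centralizer {tau ^ 8} := by
    rw [← gens_top, closure_le]
    exact fun g hg => mem_cz.mpr ((by decide +kernel : ∀ g ∈ gens, g * tau ^ 8 = tau ^ 8 * g) g hg)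
  exact fun g => mem_cz.mp (this trivial)

end M3
end H4
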