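import Cfsg.Agent.H4.JMain
import Cfsg.Agent.S0824

/-! The large extraspecial form of the hypothesis. -/

set_option autoImplicit false

namespace H4
open H78 Cfsg

theorem omega_equiv : Nonempty (Omega (ZMod 2) (quadFormMinus 1 (ZMod 2) 1 1) ≃*
    alternatingGroup (Fin 5)) := by
  obtain ⟨e⟩ := Cfsg.Agent.S0824.result (F := ZMod 2) (ZMod.card 2)
  refine ⟨(e.subgroupMap _).trans (MulEquiv.subgroupCongr ?_)⟩
  ext x
  obtain ⟨y, rfl⟩ := e.surjective x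
  rw [← alternatingGroup.commutator_perm_eq (by simp), mem_commutator_equiv]
  exact Subgroup.mem_map_iff_mem e.injective

variable {G : Type*} [Group G] [Finite G]

theorem j2_of_large {z : G} (hz : orderOf z = 2)
    (Q : Subgroup (Subgroup.centralizer ({z} : Set G))) [Q.Normal] (hQ : IsExtraspecial 2 Q)
    (hcard : Nat.card Q = 2 ^ 5) (e : (Subgroup.centralizer ({z} : Set G)) ⧸ Q ≃*
      Omega (ZMod 2) (quadFormMinus 1 (ZMod 2) 1 1))
    (hnwc : ∃ g : G, (∃ hq : g * z * g⁻¹ ∈ Subgroup.centralizer ({z} : Set G),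
      (⟨g * z * g⁻¹, hq⟩ : Subgroup.centralizer ({z} : Set G)) ∈ Q) ∧ g * z * g⁻¹ ≠ z)
    (hcl : ∃ x y : G, orderOf x = 2 ∧ orderOf y = 2 ∧ ¬ IsConj x y) :
    ∃ φ : M2.X ≃* G, φ M2.z = z := by
  obtain ⟨e'⟩ := omega_equiv
  obtain ⟨g, ⟨h1, -⟩, h2⟩ := hnwc
  have hf : ∃ g : G, Commute z (g * z * g⁻¹) ∧ g * z * g⁻¹ ≠ z := ⟨g, (mem_cz.mp h1).symm, h2⟩
  exact (JT_of_quot hz Q hcard hQ (e.trans e') hf).two hf hcl

end H4
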