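import Cfsg.Agent.H4.JM2d
import Cfsg.Agent.H67.G2Two

/-! The point stabiliser of the Hall–Janko group is `U₃(3)`. -/

set_option autoImplicit false
set_option maxRecDepth 100000

namespace H4.M2
open H49 H71 Subgroup Cfsg

noncomputable def uv : ℕ → X := mkVal [ux, uy, ug, uh] [ut]

theorem uv_sat : Sat 8 9 H93.U33L1.R uv := by
  unfold uv; exact ⟨mkVal_inv _ _ (by decide +kernel), rfl, by decide +kernel⟩

/-- The point stabiliser. -/
noncomputable def UU : Subgroup X := closure {s | s ∈ S1}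

theorem mem_UU {x : X} : x ∈ UU ↔ fp x 0 = 0 :=
  ⟨fix_closure fp (fun s hs => fp_eq ((by decide +kernel : ∀ s ∈ S1, pap 7 127 s.c 0 = 0) s hs)) x,
    st0.2.2 x⟩

theorem card_UU : Nat.card UU = 6048 :=
  (le_antisymm st0.2.1 (le_card_of_lbOK st0.1)).trans (by decide +kernel)

theorem UU_eq : UU = gen uv H93.U33L1.S := by
  refine le_antisymm ((closure_le _).mpr fun s hs => ?_) ((closure_le _).mpr ?_)
  · have e : [[0], [2], [4], [6], [8], [1, 2], [0, 8, 6, 4, 6], [6, 5, 6, 1],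
        [0, 3, 7, 5, 6, 4, 7]].map (evw uv) = S1 := by decide +kernel
    rw [← e] at hs
    obtain ⟨w, hw, rfl⟩ := List.mem_map.mp hs
    exact evw_mem_gen ((by decide : ∀ w ∈ [[0], [2], [4], [6], [8], [1, 2], [0, 8, 6, 4, 6],
      [6, 5, 6, 1], [0, 3, 7, 5, 6, 4, 7]], ∀ l ∈ w, l ∈ H93.U33L1.S) w hw)
  · rintro _ ⟨l, hl, rfl⟩
    exact mem_UU.mpr (fp_eq ((by decide +kernel : ∀ l ∈ H93.U33L1.S, pap 7 127 (uv l).c 0 = 0) l hl))

theorem UU_equiv : Nonempty (UU ≃* PSU 3 H55.F9 3) := by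
  obtain ⟨e⟩ := H67.g2K_equiv (F := ZMod 2) (ZMod.card 2)
  obtain ⟨φ, h1, -⟩ := model_hom (H93.u33_bd (uv_sat.pair (H67.g2_sat (F := ZMod 2))))
    (H67.g2K_card (ZMod.card 2)).ge
  have hb : Function.Bijective φ := (Nat.bijective_iff_surjective_and_card φ).mpr
    ⟨h1, by rw [← UU_eq, card_UU]; exact H67.g2K_card (ZMod.card 2)⟩
  exact ⟨((MulEquiv.subgroupCongr UU_eq).trans (MulEquiv.ofBijective φ hb).symm).trans e⟩

theorem index_UU : UU.index = 100 := by
  have := UU.card_mul_index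
  rw [card_UU, card] at this
  omega

theorem UU_eq' : UU = closure {s | s ∈ [ux, uy, ug, uh, ut]} := by
  refine le_antisymm (UU_eq ▸ (closure_le _).mpr ?_)
    (closure_mono fun _ hx => List.mem_append_left _ hx)
  have m : ∀ s ∈ [ux, uy, ug, uh, ut], s ∈ closure {s | s ∈ [ux, uy, ug, uh, ut]} :=
    fun _ hs => subset_closure hs
  simp only [List.mem_cons, List.not_mem_nil, or_false, forall_eq_or_imp, forall_eq] at m
  obtain ⟨m1, m2, m3, m4, m5⟩ := m
  rintro _ ⟨l, hl, rfl⟩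
  simp only [H93.U33L1.S, List.mem_cons, List.not_mem_nil, or_false, Set.mem_ofPred_eq] at hl ⊢
  rcases hl with rfl | rfl | rfl | rfl | rfl | rfl | rfl | rfl | rfl
  exacts [m1, inv_mem m1, m2, inv_mem m2, m3, inv_mem m3, m4, inv_mem m4, m5]

theorem orb36 : {i | ∃ h ∈ UU, fp h 2 = i}.ncard = 36 := by
  rw [UU_eq']
  exact orbit_list fp (ap := fun x i => pap 7 127 x.c i) fp_val 2 (W := WO36) (L := O36)
    (by decide +kernel) (by decide +kernel) (by decide +kernel) (by decide +kernel)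

theorem orb63 : {i | ∃ h ∈ UU, fp h 1 = i}.ncard = 63 := by
  rw [UU_eq']
  exact orbit_list fp (ap := fun x i => pap 7 127 x.c i) fp_val 1 (W := WO63) (L := O63)
    (by decide +kernel) (by decide +kernel) (by decide +kernel) (by decide +kernel)

theorem orb_coset {G : Type*} [Group G] (ψ : X ≃* G) (c : X) :
    (MulAction.orbit (UU.map ψ.toMonoidHom) ((ψ c : G) : G ⧸ UU.map ψ.toMonoidHom)).ncard =
      {i | ∃ h ∈ UU, fp h (fp c 0) = i}.ncard := by
  rw [ncard_orbit_quot (fp.comp ψ.symm.toMonoidHom) (b := 0) (fun x => by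
    rw [mem_map_equiv, mem_UU]; rfl)]
  congr 1
  ext i
  simp

end H4.M2
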