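import Cfsg.Agent.H68.QTChev
import Cfsg.Agent.H20.LD4Spec

/-! LD4, slot MExc: Heisenberg groups in `G₂(q)` and `³D₄(q)`, `q` odd. -/

set_option autoImplicit false

namespace H4.LDExc

open H63 (RS)
open H68 H68.QT H20.LD Cfsg Cfsg.Lie
open scoped commutatorElement

variable {D : ChevalleyDatum} [RS D] {K : Type*} [Field K] [Fintype K] {G : Type*} [Group G]

theorem heis (M : CM D K G) (H : Subgroup G) (hK : Odd (Fintype.card K)) (a b c : ℕ) (i : Fin D.rank)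
    (h : a ≠ b ∧ a ≠ D.neg b ∧ D.commTerms b a = [(c, -1, 1, 1)] ∧ cmp D 0 a c ∧ cmp D 0 b c ∧
      D.cartan i c % 2 = 1)
    (ma : M.x a 1 ∈ H) (mb : M.x b 1 ∈ H) (mi : M.tor (Pi.mulSingle i (-1)) ∈ H) : HeisR H := by
  obtain ⟨h1, h2, h3, c1, c2, h4⟩ := h
  obtain ⟨p, hp⟩ := CharP.exists K
  have k1 := commute_x M Int.cast_zero c1 1 1
  have k2 := commute_x M Int.cast_zero c2 1 1
  have k3 : ⁅M.x a 1, M.x b 1⁆ = M.x c 1 := by
    have := M.comm' c2.1 c1.1 h1 h2 1 1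
    rw [ChevalleyDatum.commWord, h3] at this
    rw [commutatorElement_def, this, show M.wd _ = M.x c 1 by simp, mul_assoc (M.x b 1), k1.eq,
      mul_assoc (M.x b 1), mul_inv_cancel_right, k2.eq, mul_inv_cancel_right]
  have k4 : ((⁅(⟨_, ma⟩ : H), ⟨_, mb⟩⁆ : H) : G) = M.x c 1 := k3
  refine ⟨p, ⟨_, ma⟩, ⟨_, mb⟩, CharP.char_is_prime K p, ?_, ⟨Subtype.ext (x_pow_char M p _ _),
    Subtype.ext (x_pow_char M p _ _), fun k => x_ne_one M c1.2.1 (k4 ▸ congrArg Subtype.val k),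
    Subtype.ext ?_, Subtype.ext ?_⟩, fun _ => Or.inl (isConj_iff.2 ⟨⟨_, mi⟩, Subtype.ext ?_⟩)⟩
  · rintro rfl
    obtain ⟨n, -, hn⟩ := FiniteField.card K 2
    exact Nat.not_even_iff_odd.2 hK (hn ▸ even_two.pow_of_ne_zero n.ne_zero)
  · simpa only [Subgroup.coe_mul, k4] using k1.symm.eq
  · simpa only [Subgroup.coe_mul, k4] using k2.symm.eq
  · simpa only [Subgroup.coe_mul, Subgroup.coe_inv, k4] using tor_inv M c1.2.1 (chi_odd h4) 1

theorem jobMExc : JobMExc := by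
  refine ⟨fun K _ _ hK => heis (mat chevG2 K) _ hK 6 10 11 ⟨1, by decide⟩ (by decide +kernel)
    (Gen2.x_mem_group (by decide) _) (Gen2.x_mem_group (by decide) _) (Gen2.tor_mem_group _),
    fun K _ _ q h1 hK => ?_⟩
  have hq : IsPrimePow q := (isPrimePow_pow_iff (by norm_num)).1 (hK ▸ FiniteField.isPrimePow_card K)
  refine heis (mat chevD4 K) _ (hK ▸ h1.pow) 14 22 23 ⟨1, by decide⟩ (by decide +kernel)
    (x_mem_D4 hq hK (by decide)) (x_mem_D4 hq hK (by decide)) (tor_mem_D4 hq hK ?_)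
  convert (tl_mem_F_D4 hq hK (a := 1) (b := -1) (c := 1) (d := 1)).2
    ⟨h1.neg_one_pow, (one_pow _).symm, (one_pow _).symm⟩
  funext i
  fin_cases i <;> simp [tl, Fin.ext_iff]

end H4.LDExc
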