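import Cfsg.Agent.H39.PSSpec

/-! PS tower, slot ENT: the entropy bound. -/

set_option autoImplicit false
set_option linter.unusedSectionVars false

namespace H4.PSEnt

open Equiv MulAction Finset H39.PS

universe u

variable {α : Type u} [Fintype α] [DecidableEq α] (G : Subgroup (Perm α))

/-- `T` as a linear map -/
noncomputable def TL : Module.End ℝ (Finset α → ℝ) where
  toFun := T
  map_add' f g := funext fun S => by simp [T, sum_add_distrib]
  map_smul' c f := funext fun S => by simp [T, mul_sum]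

theorem T_eq (s : ℕ) (f : Finset α → ℝ) : T^[s] f = (TL ^ s) f := by
  rw [Module.End.coe_pow]; rfl

theorem T_one (s : ℕ) (S : Finset α) : T^[s] 1 S = (Sᶜ.card.descFactorial s : ℝ) := by
  induction s generalizing S with
  | zero => simp
  | succ s ih =>
    rw [T_succ, sum_congr rfl fun x hx => by rw [ih, compl_insert, card_erase_of_mem hx], sum_const,
      nsmul_eq_mul]
    rcases Sᶜ.card with _ | k
    · simp
    · rw [Nat.succ_descFactorial_succ]; simp

theorem desc (N s : ℕ) :
    N * (N - 1) * (N - 2).descFactorial s = N.descFactorial (s + 1) * (N - 1 - s) := by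
  rcases N with _ | _ | N
  · simp
  · simp
  · have := Nat.descFactorial_succ (N + 1 + 1) (s + 1)
    rw [Nat.succ_descFactorial_succ, Nat.succ_descFactorial_succ] at this
    rw [mul_comm (Nat.descFactorial _ _), Nat.sub_sub, add_comm 1 s, ← this, mul_assoc]; rfl

/-- the logarithm of the order of the stabiliser -/
noncomputable def lg (U : Finset α) : ℝ := Real.log (Nat.card (fx G U))

theorem orb (U : Finset α) (x : α) :
    Nat.card (fx G U) = Nat.card (orbit (fx G U) x) * Nat.card (fx G (insert x U)) := by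
  have h : fx G (insert x U) ≤ fx G U := fun g hg =>
    mem_fx.2 ⟨(mem_fx.1 hg).1, fun a ha => (mem_fx.1 hg).2 a (mem_insert_of_mem ha)⟩
  have e : stabilizer (fx G U) x = (fx G (insert x U)).subgroupOf (fx G U) := by
    ext g
    rw [mem_stabilizer_iff, Subgroup.mem_subgroupOf, mem_fx, forall_mem_insert]
    exact ⟨fun k => ⟨(mem_fx.1 g.2).1, k, (mem_fx.1 g.2).2⟩, fun k => k.2.1⟩
  rw [← Nat.card_congr (orbitProdStabilizerEquivGroup (fx G U) x), Nat.card_prod, e,
    Nat.card_congr (Subgroup.subgroupOfEquivOfLe h).toEquiv]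

theorem un0 (a b : α) (U : Finset α) : 0 ≤ un G a b U := by unfold un; split_ifs <;> simp

theorem orb_le {S U : Finset α} (h : S ⊆ U) {x : α} (hx : x ∉ U) :
    (Nat.card (orbit (fx G U) x) : ℝ) ≤ 1 + ∑ b ∈ Sᶜ.erase x, un G x b U := by
  classical
  have k : ∀ b ∈ (orbit (fx G U) x).toFinset, b ∉ U ∧ un G x b U = 1 := fun b hb => by
    obtain ⟨g, rfl⟩ := Set.mem_toFinset.1 hb
    have k : g • x ∉ U := fun k => hx (g.1.injective ((mem_fx.1 g.2).2 _ k) ▸ k)
    exact ⟨k, if_pos ⟨hx, k, g.1, g.2, rfl⟩⟩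
  have m : x ∈ (orbit (fx G U) x).toFinset := Set.mem_toFinset.2 (mem_orbit_self x)
  rw [Nat.card_eq_card_toFinset, ← card_erase_add_one m, Nat.cast_add, Nat.cast_one, add_comm,
    add_le_add_iff_left, card_eq_sum_ones, Nat.cast_sum, Nat.cast_one,
    sum_congr rfl fun b hb => (k b (mem_of_mem_erase hb)).2.symm]
  exact sum_le_sum_of_subset_of_nonneg (erase_subset_erase _ fun b hb =>
    mem_compl.2 fun k' => (k b hb).1 (h k')) fun b _ _ => un0 G x b U

theorem step {S U : Finset α} (h : S ⊆ U) {M : ℝ} (hM : 0 < M) :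
    Uᶜ.card * lg G U ≤ Uᶜ.card * (Real.log M - 1 + M⁻¹) +
      M⁻¹ * (∑ a ∈ Sᶜ, ∑ b ∈ Sᶜ.erase a, un G a b U) + T (lg G) U := by
  have k : ∀ x ∈ Uᶜ, lg G U ≤ Real.log M - 1 + M⁻¹ + M⁻¹ * (∑ b ∈ Sᶜ.erase x, un G x b U) +
      lg G (insert x U) := fun x hx => by
    have : Nonempty (orbit (fx G U) x) := ⟨⟨x, mem_orbit_self x⟩⟩
    have p : (0 : ℝ) < Nat.card (orbit (fx G U) x) := Nat.cast_pos.2 Nat.card_pos
    have k1 := Real.log_le_sub_one_of_pos (div_pos p hM)
    have k2 := mul_le_mul_of_nonneg_left (orb_le G h (mem_compl.1 hx)) (inv_pos.2 hM).le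
    rw [Real.log_div p.ne' hM.ne', div_eq_inv_mul] at k1
    rw [lg, orb G U x, Nat.cast_mul, Real.log_mul p.ne' (Nat.cast_pos.2 Nat.card_pos).ne', lg]
    linarith
  have k1 := sum_le_sum k
  have k2 := mul_le_mul_of_nonneg_left (sum_le_sum_of_subset_of_nonneg (compl_subset_compl.2 h)
    (f := fun a => ∑ b ∈ Sᶜ.erase a, un G a b U) fun a _ _ => sum_nonneg fun b _ => un0 G a b U)
    (inv_pos.2 hM).le
  rw [sum_const, sum_add_distrib, sum_add_distrib, sum_const, ← mul_sum, nsmul_eq_mul,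
    nsmul_eq_mul] at k1
  rw [T]
  linarith

theorem jobEnt : Ent.{u} := by
  intro α _ _ G S Q q0 hQ
  obtain ⟨N, hN⟩ : ∃ N, N = Sᶜ.card := ⟨_, rfl⟩
  let M : ℕ → ℝ := fun s => 1 + ((N - 1 - s : ℕ) : ℝ) * Q s
  have hM : ∀ s, 0 < M s := fun s => add_pos_of_pos_of_nonneg one_pos (mul_nonneg (by simp) (q0 s))
  have cc : ∀ s, ∀ U : Finset α, U.card = S.card + s → Uᶜ.card = N - s := fun s U e => by
    rw [hN, card_compl, card_compl, e, Nat.sub_sub]
  have st : ∀ s, ((N - s : ℕ) : ℝ) * T^[s] (lg G) S ≤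
      N.descFactorial (s + 1) * Real.log (M s) + T^[s + 1] (lg G) S := fun s => by
    have k1 := T_mono (f := ((N - s : ℕ) : ℝ) • lg G)
      (g := (((N - s : ℕ) : ℝ) * (Real.log (M s) - 1 + (M s)⁻¹)) • 1 +
        (M s)⁻¹ • (∑ a ∈ Sᶜ, ∑ b ∈ Sᶜ.erase a, un G a b) + T (lg G)) s S fun U h e => by
          have := step G h (hM s)
          rw [cc s U e] at this
          simpa [Finset.sum_apply, -sum_erase_eq_sub] using this
    have k2 : ∑ a ∈ Sᶜ, ∑ b ∈ Sᶜ.erase a, T^[s] (un G a b) S ≤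
        N.descFactorial (s + 1) * (M s - 1) := by
      refine (sum_le_sum fun a ha => sum_le_sum fun b hb => hQ a (mem_compl.1 ha) b
        (mem_compl.1 (mem_of_mem_erase hb)) (ne_of_mem_erase hb).symm s).trans_eq ?_
      rw [sum_congr rfl fun a ha => by rw [sum_const, card_erase_of_mem ha], sum_const, ← hN,
        nsmul_eq_mul, nsmul_eq_mul, ← mul_assoc, ← mul_assoc, ← Nat.cast_mul, ← Nat.cast_mul, desc,
        Nat.cast_mul, mul_assoc]
      simp [M]
    simp only [T_eq, map_add, map_smul, map_sum, Pi.add_apply, Pi.smul_apply, Finset.sum_apply,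
      smul_eq_mul] at k1
    simp only [← T_eq, T_one, ← hN] at k1
    have k3 := mul_le_mul_of_nonneg_left k2 (inv_pos.2 (hM s)).le
    have k4 := inv_mul_cancel₀ (hM s).ne'
    rw [Function.iterate_succ_apply]
    rw [Nat.descFactorial_succ, Nat.cast_mul] at k3 ⊢
    have : (M s)⁻¹ * (((N - s : ℕ) : ℝ) * N.descFactorial s * (M s - 1)) =
        ((N - s : ℕ) : ℝ) * N.descFactorial s * (1 - (M s)⁻¹) := by
      linear_combination ((N - s : ℕ) : ℝ) * N.descFactorial s * k4
    linarith
  have cl : ∀ k s, s + k = N →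
      T^[s] (lg G) S ≤ N.descFactorial s * ∑ i ∈ Ico s N, Real.log (M i) := fun k => by
    induction k with
    | zero =>
      intro s e
      rw [← e, add_zero, Ico_self, sum_empty, mul_zero]
      refine (T_mono (g := 0) s S fun U _ e' => ?_).trans_eq (by rw [T_eq, map_zero]; rfl)
      have : U = univ := by
        rw [← compl_eq_empty_iff, ← card_eq_zero, cc s U e']; omega
      rw [lg, (Subgroup.eq_bot_iff_forall _).2 fun g hg => Equiv.ext fun a =>
        (mem_fx.1 hg).2 a (this ▸ mem_univ a)]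
      simp
    | succ k ih =>
      intro s e
      have p : (0 : ℝ) < (N - s : ℕ) := Nat.cast_pos.2 (by omega)
      refine le_of_mul_le_mul_left ((st s).trans ?_) p
      rw [sum_eq_sum_Ico_succ_bot (by omega), ← mul_assoc, ← Nat.cast_mul, ← Nat.descFactorial_succ,
        mul_add, add_le_add_iff_left]
      exact ih _ (by omega)
  have := cl N 0 (zero_add N)
  rw [Nat.descFactorial_zero, Nat.cast_one, one_mul, ← range_eq_Ico,
    ← Real.log_prod fun i _ => (hM i).ne'] at this
  rw [← hN]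
  exact (Real.log_le_log_iff (Nat.cast_pos.2 Nat.card_pos) (prod_pos fun i _ => hM i)).1 this

end H4.PSEnt
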